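import Mathlib
import Cfsg.Agent.Class.Max.C4S4

set_option autoImplicit false

namespace Cfsg.Agent.Class.Tab

/-- Class `C₄` in `Sp₈`: `Sp₂ ∘ O₄⁻`. -/
theorem c4_sp8 {F : Type*} [Field F] [Fintype F] (ho : Odd (Fintype.card F))
    (e : (Fin 4 ⊕ Fin 4) ≃ Fin 2 × Fin 4) (P : GL (Fin 4 ⊕ Fin 4) F)
    (f₁ : (Fin 2 → F) → (Fin 2 → F) → F) (f₂ : (Fin 4 → F) → (Fin 4 → F) → F)
    (h1 : Geo.IsSymplecticForm f₁) (h2 : Geo.IsSymmetricForm f₂)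
    (hm : ¬ Geo.IsPlusTypeOn (fun v : Fin 4 → F => f₂ v v) ⊤)
    (hT : Geo.IsTensorFormStructure id (sympForm 4 F) f₁ f₂ e P) :
    Geo.IsMaximalIn (spGL 4 F) (Geo.tensorProductSubgroup 2 4 e P ⊓ spGL 4 F) := by
  exact Max.sp_sp2_o4_isMaximalIn ho e P h1 h2 hm hT

end Cfsg.Agent.Class.Tab
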