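import Mathlib
import Cfsg.Agent.Class.Max.C7Z

set_option autoImplicit false

namespace Cfsg.Agent.Class.Tab

/-- Class `C₇` in `SU₉`. -/
theorem c7_su9 {F : Type*} [Field F] [Fintype F] {q : ℕ} (hF : Fintype.card F = q ^ 2)
    (hq : 3 ≤ q) (e : Fin 9 ≃ (Fin 2 → Fin 3)) (P : GL (Fin 9) F)
    (f₁ : (Fin 3 → F) → (Fin 3 → F) → F) (h1 : Geo.IsUnitaryFormPow q f₁)
    (hT : Geo.IsTensorPowerFormStructure (fun x : F => x ^ q) (hermForm 9 F q) f₁ e P) :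
    Geo.IsMaximalIn (GU 9 F q ⊓ Geo.specialLinear (Fin 9) F)
      (Geo.tensorWreathSubgroup 3 2 e P ⊓ (GU 9 F q ⊓ Geo.specialLinear (Fin 9) F)) := by
  exact Max.su_wreath_isMaximalIn hF le_rfl le_rfl (by omega) e P h1 hT

end Cfsg.Agent.Class.Tab
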