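import Mathlib
import Cfsg.Agent.Class.Max.C7Z

set_option autoImplicit false

namespace Cfsg.Agent.Class.Tab

/-- Class `C₇` in `Sp₈`. -/
theorem c7_sp8 {F : Type*} [Field F] [Fintype F] (ho : Odd (Fintype.card F))
    (hq : 5 ≤ Fintype.card F) (e : (Fin 4 ⊕ Fin 4) ≃ (Fin 3 → Fin 2)) (P : GL (Fin 4 ⊕ Fin 4) F)
    (f₁ : (Fin 2 → F) → (Fin 2 → F) → F) (h1 : Geo.IsSymplecticForm f₁)
    (hT : Geo.IsTensorPowerFormStructure id (sympForm 4 F) f₁ e P) :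
    Geo.IsMaximalIn (spGL 4 F) (Geo.tensorWreathSubgroup 2 3 e P ⊓ spGL 4 F) := by
  exact Max.sp_wreath_isMaximalIn ho le_rfl (by decide) le_rfl (by omega) e P h1 hT

end Cfsg.Agent.Class.Tab
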