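import Mathlib
import Cfsg.Agent.Class.Max.FrR

/-!
Reflection groups in dimension five containing the reflections of an orthonormal frame and the
even permutations of the frame.
-/

set_option autoImplicit false

namespace Cfsg.Agent.Class.Tab

open Module Cfsg.Agent.Class.Max Equiv

variable {F : Type*} [Field F]

section Alg

variable {s : Fin 5 → F} (h2 : (2 : F) ≠ 0) (h4 : ∀ i j, i ≠ j → s j ≠ 0 → s i ≠ 4)
  (tri : ∀ i j k, i ≠ j → i ≠ k → j ≠ k → s i ≠ 0 → s j ≠ 0 → s k ≠ 0 →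
    s i = 1 ∨ s j = 1 ∨ (s i ^ 2 - 3 * s i + 1 = 0 ∧ s i + s j = 3))
include h2 h4 tri

theorem no_three {i j k : Fin 5} (hij : i ≠ j) (hik : i ≠ k) (hjk : j ≠ k) (a : s i ≠ 0)
    (b : s j ≠ 0) (c : s k ≠ 0) : s i = 1 ∨ s j = 1 ∨ s k = 1 := by
  by_contra hc
  push Not at hc
  obtain ⟨e1, e2⟩ := ((tri i j k hij hik hjk a b c).resolve_left hc.1).resolve_left hc.2.1
  obtain ⟨-, e3⟩ := ((tri i k j hik hij hjk.symm a c b).resolve_left hc.1).resolve_left hc.2.2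
  obtain ⟨-, e4⟩ := ((tri j k i hjk hij.symm hik.symm b c a).resolve_left hc.2.1).resolve_left hc.2.2
  have e5 : 2 * s i = 3 := by linear_combination e2 + e3 - e4
  have e6 : (5 : F) = 0 := by linear_combination (2 * s i - 3) * e5 - 4 * e1
  exact h4 i j hij b (mul_left_cancel₀ h2 (by linear_combination e5 - e6))

theorem pair {i j k : Fin 5} (hij : i ≠ j) (hik : i ≠ k) (hjk : j ≠ k) (a : s i ≠ 0)
    (b : s j ≠ 0) (c : s k ≠ 0) : s i = 1 ∨ s j = 1 ∨ (s i + s j = 3 ∧ s k = 1) := by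
  by_contra hc
  push Not at hc
  exact hc.2.2 (((tri i j k hij hik hjk a b c).resolve_left hc.1).resolve_left hc.2.1).2
    (((no_three h2 h4 tri hij hik hjk a b c).resolve_left hc.1).resolve_left hc.2.1)

theorem not_full (sum : ∑ i, s i = 4) (h0 : ∀ i, s i ≠ 0) : False := by
  have key : ∀ i, ∑ j ∈ Finset.univ.erase i, s j = ∑ j ∈ Finset.univ.erase i, 1 → False :=
    fun i e => h0 i (by
      rw [← Finset.add_sum_erase _ _ (Finset.mem_univ i), e] at sum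
      simpa using sum)
  by_cases h1 : ∃ i j, i ≠ j ∧ s i ≠ 1 ∧ s j ≠ 1
  · obtain ⟨i, j, hij, a, b⟩ := h1
    have h3 := fun k (hk : k ∈ (Finset.univ.erase i).erase j) => ((pair h2 h4 tri hij (k := k)
      (by simp at hk; exact Ne.symm hk.2) (by simp at hk; exact Ne.symm hk.1) (h0 _) (h0 _)
      (h0 _)).resolve_left a).resolve_left b
    have h5 : ((Finset.univ.erase i).erase j).card = 3 := by
      simp [Finset.card_erase_of_mem, hij.symm]
    obtain ⟨k, hk⟩ := Finset.card_pos.1 (h5 ▸ three_pos)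
    rw [← Finset.add_sum_erase _ _ (Finset.mem_univ i), ← Finset.add_sum_erase _ _
      (show j ∈ Finset.univ.erase i by simp [hij.symm]), Finset.sum_congr rfl fun k hk => (h3 k hk).2,
      Finset.sum_const, h5] at sum
    exact h2 (by simp at sum; linear_combination sum - (h3 k hk).1)
  · push Not at h1
    by_cases h3 : ∃ i, s i ≠ 1
    · obtain ⟨i, hi⟩ := h3
      exact key i (Finset.sum_congr rfl fun j hj => h1 i j (by simp at hj; exact Ne.symm hj) hi)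
    · push Not at h3
      exact key 0 (Finset.sum_congr rfl fun j _ => h3 j)

theorem four_eq (sum : ∑ i, s i = 4) (h0 : s 0 = 0) (h1 : ∀ i, i ≠ 0 → s i ≠ 0) :
    ∀ i, i ≠ 0 → s i = 1 := by
  have p := fun (i j k : Fin 5) (h : i ≠ j ∧ i ≠ k ∧ j ≠ k ∧ i ≠ 0 ∧ j ≠ 0 ∧ k ≠ 0) =>
    pair h2 h4 tri h.1 h.2.1 h.2.2.1 (h1 _ h.2.2.2.1) (h1 _ h.2.2.2.2.1) (h1 _ h.2.2.2.2.2)
  have := p 1 2 3 (by decide)
  have := p 1 2 4 (by decide)
  have := p 1 3 2 (by decide)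
  have := p 1 3 4 (by decide)
  have := p 1 4 2 (by decide)
  have := p 1 4 3 (by decide)
  have := p 2 3 1 (by decide)
  have := p 2 3 4 (by decide)
  have := p 2 4 1 (by decide)
  have := p 2 4 3 (by decide)
  have := p 3 4 1 (by decide)
  have := p 3 4 2 (by decide)
  rw [Fin.sum_univ_five, h0] at sum
  clear p h1 h4 tri
  intro i hi
  fin_cases i
  · exact absurd rfl hi
  all_goals
    simp only [Fin.reduceFinMk]
    grind

end Alg

variable {Φ : Fm F (Fin 5 → F)} {hO : Φ.IsO} {K : Subgroup ((Fin 5 → F) ≃ₗ[F] (Fin 5 → F))}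

/-- The map `f` is induced by `K`. -/
def Act (K : Subgroup ((Fin 5 → F) ≃ₗ[F] (Fin 5 → F))) (f : (Fin 5 → F) → Fin 5 → F) : Prop :=
  ∃ g ∈ K, ∀ x, g x = f x

variable (hO K) in
/-- The reflection vectors of norm one. -/
def Om (w : Fin 5 → F) : Prop := Φ.Q w = 1 ∧ hO.r w ∈ K

variable (Φ) in
/-- The standard form. -/
structure Std : Prop where
  two : (2 : F) ≠ 0
  B : ∀ x y, Φ.B x y = 2 * ∑ i, x i * y i
  Q : ∀ x, Φ.Q x = ∑ i, x i * x i

variable (hO K) in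
/-- `K` contains the reflections of the standard frame and its even permutations. -/
structure Fr : Prop extends Std Φ where
  iso : K ≤ Φ.Iso
  re : ∀ i, hO.r (Pi.single i 1) ∈ K
  rr : ∀ i j k l, i ≠ j → k ≠ l →
    hO.r (Pi.single i 1 - Pi.single j 1) * hO.r (Pi.single k 1 - Pi.single l 1) ∈ K

theorem exists_two {w : Fin 5 → F} (q : ∑ i, w i * w i = 1)
    (h : ∀ j, w ≠ Pi.single j 1 ∧ w ≠ -Pi.single j 1) : ∃ i j, i ≠ j ∧ w i ≠ 0 ∧ w j ≠ 0 := by
  by_contra hc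
  push Not at hc
  obtain ⟨i, hi⟩ : ∃ i, w i ≠ 0 := by
    by_contra e
    push Not at e
    simp [e] at q
  have e : w = Pi.single i (w i) := funext fun j => by
    by_cases e : j = i
    · simp [e]
    · simp [e, hc i j (Ne.symm e) hi]
  rw [Finset.sum_eq_single i (fun j _ e => by simp [hc i j e.symm hi]) (by simp)] at q
  rcases mul_self_eq_one_iff.1 q with e' | e' <;> rw [e'] at e
  · exact (h i).1 e
  · exact (h i).2 (e.trans (Pi.single_neg ..))

namespace Std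

variable (h : Std Φ)
include h

theorem B_e (i : Fin 5) (x : Fin 5 → F) : Φ.B (Pi.single i 1) x = 2 * x i := by
  simp [h.B, Pi.single_apply]

theorem Q_e (i : Fin 5) : Φ.Q (Pi.single i 1) = 1 := by simp [h.Q, Pi.single_apply]

theorem Q_sub (hO : Φ.IsO) {i j : Fin 5} (hij : i ≠ j) : Φ.Q (Pi.single i 1 - Pi.single j 1) = 2 := by
  rw [hO.Q_sub, h.Q_e, h.Q_e, h.B_e, Pi.single_eq_of_ne hij]; norm_num

theorem r_swap {i j : Fin 5} (hij : i ≠ j) (x : Fin 5 → F) :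
    hO.r (Pi.single i 1 - Pi.single j 1) x = x ∘ swap i j := by
  have := h.two
  rw [hO.r_apply, h.Q_sub hO hij, Φ.B_sub_left, h.B_e, h.B_e]
  funext t
  simp only [Pi.sub_apply, Pi.smul_apply, Function.comp_apply, swap_apply_def, Pi.single_apply]
  split_ifs with e1 e2 e2
  · exact absurd (e1.symm.trans e2) hij
  · simp [e1]; field_simp; ring
  · simp [e2]; field_simp; ring
  · simp

end Std

theorem exists_std [Finite F] (h2 : (2 : F) ≠ 0) : ∃ Φ : Fm F (Fin 5 → F), Φ.IsO ∧ Std Φ := by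
  let Q : QuadraticForm F (Fin 5 → F) := QuadraticMap.weightedSumSquares F (1 : Fin 5 → F)
  have hQ : ∀ x, Q x = ∑ i, x i * x i := fun x => by simp [Q, QuadraticMap.weightedSumSquares_apply]
  have hB : ∀ x y, QuadraticMap.polar Q x y = 2 * ∑ i, x i * y i := fun x y => by
    simp only [QuadraticMap.polar, hQ, Fin.sum_univ_five, Pi.add_apply]
    ring
  exact ⟨fmQuad Q fun x hx => funext fun i => by
    simpa [hB, h2, Pi.single_apply] using hx (Pi.single i 1), ⟨fun _ => rfl, rfl, fun _ => rfl, rfl⟩,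
    h2, hB, hQ⟩

namespace Fr

variable (h : Fr hO K)
include h

theorem om_e (i : Fin 5) : Om hO K (Pi.single i 1) := ⟨h.Q_e i, h.re i⟩

theorem om_map {g : (Fin 5 → F) ≃ₗ[F] (Fin 5 → F)} (hg : g ∈ K) {w : Fin 5 → F} (hw : Om hO K w) :
    Om hO K (g w) := ⟨(Fm.Iso.Q (h.iso hg) w).trans hw.1, hO.r_conj_mem h.iso hg hw.2⟩

theorem om_act {f : (Fin 5 → F) → Fin 5 → F} (hf : Act K f) {w : Fin 5 → F} (hw : Om hO K w) :
    Om hO K (f w) := let ⟨_, hg, e⟩ := hf; e w ▸ h.om_map hg hw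

theorem om_r {w x : Fin 5 → F} (hw : Om hO K w) (hx : Om hO K x) : Om hO K (x - Φ.B w x • w) :=
  hO.r_one hw.1 x ▸ h.om_map hw.2 hx

theorem act_swap {i j k l : Fin 5} (hij : i ≠ j) (hkl : k ≠ l) :
    Act K fun x => (x ∘ swap k l) ∘ swap i j :=
  ⟨_, h.rr i j k l hij hkl, fun x => by rw [mul_app, h.r_swap hij, h.r_swap hkl]⟩

theorem act_sign {ε : Fin 5 → F} (hε : ∀ i, ε i * ε i = 1) : Act K (ε * ·) := by
  rw [← Finset.univ_prod_mulSingle ε]
  refine Finset.prod_induction _ (fun ε : Fin 5 → F => Act K (ε * ·))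
    (fun a b ⟨g, hg, e⟩ ⟨k, hk, e'⟩ => ⟨_, K.mul_mem hg hk, fun x => by
      rw [mul_app, e, e']; exact (mul_assoc ..).symm⟩) ⟨1, K.one_mem, fun x => (one_mul x).symm⟩ fun i _ => ?_
  rcases mul_self_eq_one_iff.1 (hε i) with e | e <;> rw [e]
  · exact ⟨1, K.one_mem, fun x => by simp⟩
  · refine ⟨_, h.re i, fun x => funext fun t => ?_⟩
    rw [hO.r_one (h.Q_e i), h.B_e]
    by_cases e : t = i
    · simp [e]; ring
    · simp [e]

theorem exists_perm {i j k : Fin 5} (hij : i ≠ j) (hik : i ≠ k) (hjk : j ≠ k) :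
    ∃ σ : Perm (Fin 5), Act K (· ∘ σ) ∧ σ 0 = i ∧ σ 1 = j ∧ σ 2 = k := by
  have key : ∀ σ : Perm (Fin 5), Act K (· ∘ σ) ∨ ∀ i j, i ≠ j → Act K (· ∘ (σ * swap i j :)) :=
    fun σ => by
      induction σ using Perm.swap_induction_on' with
      | one => exact Or.inl ⟨1, K.one_mem, fun _ => rfl⟩
      | mul_swap σ x y hxy ih =>
        refine ih.elim (fun ⟨g, hg, e⟩ => Or.inr fun i j hij => ?_) fun e => Or.inl (e x y hxy)
        obtain ⟨k, hk, e'⟩ := h.act_swap hij hxy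
        exact ⟨_, K.mul_mem hk hg, fun z => by rw [mul_app, e, e']; rfl⟩
  obtain ⟨σ, hσ⟩ := Perm.exists_extending_pair (f := (![0, 1, 2] : Fin 3 → Fin 5))
    (g := ![i, j, k]) (by decide) (by
      intro a b
      fin_cases a <;> fin_cases b <;> simp [hij, hik, hjk, hij.symm, hik.symm, hjk.symm])
  exact (key σ).elim (fun e => ⟨σ, e, hσ 0, hσ 1, hσ 2⟩)
    fun e => ⟨_, e 3 4 (by decide), hσ 0, hσ 1, hσ 2⟩

theorem exists_perm₂ {i j : Fin 5} (hij : i ≠ j) :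
    ∃ σ : Perm (Fin 5), Act K (· ∘ σ) ∧ σ 0 = i ∧ σ 1 = j := by
  obtain ⟨k, hik, hjk⟩ : ∃ k, i ≠ k ∧ j ≠ k := by revert i j; decide
  obtain ⟨σ, a, b, c, -⟩ := h.exists_perm hij hik hjk
  exact ⟨σ, a, b, c⟩

/-- Normal form of a vector with one zero coordinate and four coordinates of square `c * c`. -/
theorem exists_nf {w : Fin 5 → F} {m : Fin 5} {c : F} (hc : c ≠ 0) (h0 : w m = 0)
    (h1 : ∀ i, i ≠ m → w i * w i = c * c) : ∃ g ∈ K, g w = ![0, c, c, c, c] := by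
  obtain ⟨j, hj⟩ := exists_ne m
  obtain ⟨σ, ⟨g, hg, e⟩, rfl, -⟩ := h.exists_perm₂ hj.symm
  obtain ⟨k, hk, e'⟩ := h.act_sign (ε := fun i => if i = 0 then 1 else w (σ i) / c) fun i => by
    split_ifs with e
    · simp
    · rw [div_mul_div_comm, h1 _ (σ.injective.ne e), div_self (mul_ne_zero hc hc)]
  refine ⟨_, K.mul_mem hk hg, funext fun i => ?_⟩
  rw [mul_app, e', e]
  have : ∀ i, i ≠ 0 → w (σ i) / c * w (σ i) = c := fun i e => by
    rw [div_mul_eq_mul_div, h1 _ (σ.injective.ne e), mul_div_cancel_right₀ _ hc]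
  fin_cases i <;> simp [h0, this]

section Tame

variable (hF : ∀ a : F, ∃ n : ℕ, a = n) (hE : ∀ v u, v ≠ 0 → Φ.InA K v u → Φ.Q u = 0)
include hE

theorem ne_four {w : Fin 5 → F} (hw : Om hO K w) {T : Finset (Fin 5)} {k : Fin 5} (hk : k ∉ T)
    (wk : w k ≠ 0) : ∑ t ∈ T, (2 * w t) ^ 2 ≠ 4 := fun e => by
  have h1 := h.om_act (h.act_sign (ε := fun t => if t ∈ T then -1 else 1)
    fun t => by split_ifs <;> simp) hw
  have h3 := congrFun (hO.eq_of_B_eq_neg_two hE hw.1 h1.1 hw.2 h1.2 (by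
    have := hw.1
    rw [h.Q, ← Finset.sum_add_sum_compl T] at this
    rw [h.B, ← Finset.sum_add_sum_compl T,
      Finset.sum_congr rfl (g := fun t => -(w t * w t)) fun t ht => by simp [ht],
      Finset.sum_congr rfl (s₁ := Tᶜ) (g := fun t => w t * w t) fun t ht => by
        simp [Finset.mem_compl.1 ht], Finset.sum_neg_distrib]
    simp only [mul_pow, ← Finset.mul_sum] at e
    simp only [sq] at e
    linear_combination 2 * this - e)) k
  simp only [Pi.mul_apply, hk, if_false, one_mul, Pi.neg_apply] at h3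
  exact mul_ne_zero h.two wk (by linear_combination h3)

theorem h4 {w : Fin 5 → F} (hw : Om hO K w) (i j : Fin 5) (hij : i ≠ j) (wj : (2 * w j) ^ 2 ≠ 0) :
    (2 * w i) ^ 2 ≠ 4 := by
  simpa using h.ne_four hE hw (T := {i}) (by simpa using hij.symm) (by simpa [h.two] using wj)

omit hE in
theorem sum {w : Fin 5 → F} (hw : Om hO K w) : ∑ i, (2 * w i) ^ 2 = 4 := by
  have := hw.1
  rw [h.Q] at this
  simp only [mul_pow, ← Finset.mul_sum]
  simp only [sq, this]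
  norm_num

variable [Finite F]
include hF

theorem tri {w : Fin 5 → F} (hw : Om hO K w) (i j k : Fin 5) (hij : i ≠ j) (hik : i ≠ k)
    (hjk : j ≠ k) (wi : (2 * w i) ^ 2 ≠ 0) (wj : (2 * w j) ^ 2 ≠ 0) (wk : (2 * w k) ^ 2 ≠ 0) :
    (2 * w i) ^ 2 = 1 ∨ (2 * w j) ^ 2 = 1 ∨
      (((2 * w i) ^ 2) ^ 2 - 3 * (2 * w i) ^ 2 + 1 = 0 ∧ (2 * w i) ^ 2 + (2 * w j) ^ 2 = 3) := by
  have := hO.triple h.two (fun a => by
    obtain ⟨n, rfl⟩ := hF a
    obtain ⟨p, hp⟩ := CharP.exists F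
    have := Fact.mk (CharP.char_is_prime F p)
    obtain ⟨x, y, e⟩ := CharP.sq_add_sq F p n
    exact ⟨x, y, by simpa [sq] using e⟩) h.iso hE (h.Q_e i) (h.Q_e j) hw.1
    (by rw [h.B_e, Pi.single_eq_of_ne hij, mul_zero]) (h.re i) (h.re j) hw.2
    (by simpa [h.B_e] using wi) (by simpa [h.B_e] using wj) (by
      simpa [h.B_e, hij] using h.ne_four hE hw (T := {i, j}) (k := k) (by simp [hik.symm, hjk.symm])
        (by simpa [h.two] using wk))
  rwa [h.B_e, h.B_e, show 4 = 2 * 2 from rfl, pow_mul] at this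

theorem five {w : Fin 5 → F} (hw : Om hO K w) (h0 : ∀ i, w i ≠ 0) : False :=
  not_full h.two (h.h4 hE hw) (h.tri hF hE hw) (h.sum hw) fun i => by simp [h.two, h0]

theorem four (h3 : (3 : F) ≠ 0) {w : Fin 5 → F} (hw : Om hO K w) {m : Fin 5} (h0 : w m = 0)
    (h1 : ∀ i, i ≠ m → w i ≠ 0) : False := by
  have h2 := h.two
  obtain ⟨j, hj⟩ := exists_ne m
  obtain ⟨σ, e, rfl, -⟩ := h.exists_perm₂ hj.symm
  have k1 := h.om_act e hw
  obtain ⟨g, hg, e1⟩ := h.exists_nf (w := w ∘ σ) (m := 0) (c := 2⁻¹) (inv_ne_zero h2) h0 fun i hi => by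
    have := four_eq h2 (h.h4 hE k1) (h.tri hF hE k1) (h.sum k1) (by simp [h0])
      (fun i hi => by simpa [h2] using h1 _ (σ.injective.ne hi)) i hi
    field_simp
    linear_combination this
  have k2 := e1 ▸ h.om_map hg k1
  have k3 := h.om_act (h.act_sign (ε := ![1, 1, 1, -1, 1]) fun i => by fin_cases i <;> simp)
    (h.om_act (h.act_swap (i := 0) (j := 4) (k := 1) (l := 2) (by decide) (by decide)) k2)
  refine h.five hF hE (h.om_r k2 k3) fun i => ?_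
  have h4 : (4 : F) ≠ 0 := by rw [show (4 : F) = 2 * 2 by norm_num]; exact mul_ne_zero h2 h2
  have e2 : Φ.B ![0, 2⁻¹, 2⁻¹, 2⁻¹, 2⁻¹] (![1, 1, 1, -1, 1] *
      ((![0, 2⁻¹, 2⁻¹, 2⁻¹, 2⁻¹] ∘ swap 1 2) ∘ swap 0 4)) = 2⁻¹ := by
    simp [h.B, Fin.sum_univ_five, swap_apply_def, h2]
  rw [e2]
  fin_cases i <;> simp [swap_apply_def, h2] <;> field_simp <;> norm_num
  exact h3

theorem three₀ {w : Fin 5 → F} (hw : Om hO K w) (w0 : w 0 ≠ 0) (w1 : w 1 ≠ 0)
    (w2 : (2 * w 2) ^ 2 = 1) (w3 : w 3 = 0) (w4 : w 4 = 0) : False := by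
  have h2 := h.two
  have k := h.om_act (h.act_swap (i := 0) (j := 3) (k := 1) (l := 4) (by decide) (by decide)) hw
  refine h.five hF hE (h.om_r hw k) fun i => ?_
  have e : Φ.B w ((w ∘ swap 1 4) ∘ swap 0 3) = 2⁻¹ := by
    simp [h.B, Fin.sum_univ_five, swap_apply_def, w3, w4]
    field_simp
    linear_combination w2
  have w2' : w 2 ≠ 0 := fun e => by simp [e] at w2
  rw [e]
  fin_cases i <;> simp [swap_apply_def, h2, w0, w1, w3, w4]
  rw [show w 2 - 2⁻¹ * w 2 = 2⁻¹ * w 2 by field_simp; ring]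
  simp [h2, w2']

variable (h3 : (3 : F) ≠ 0)
include h3

theorem three {w : Fin 5 → F} (hw : Om hO K w) {i j k : Fin 5} (hij : i ≠ j) (hik : i ≠ k)
    (hjk : j ≠ k) (wi : w i ≠ 0) (wj : w j ≠ 0) : w k = 0 := by
  by_contra wk
  have key : ∀ {i j k : Fin 5}, i ≠ j → i ≠ k → j ≠ k → w i ≠ 0 → w j ≠ 0 → w k ≠ 0 →
      (2 * w k) ^ 2 ≠ 1 := fun {i j k} hij hik hjk wi wj wk e => by
    obtain ⟨σ, e1, rfl, rfl, rfl⟩ := h.exists_perm hij hik hjk
    have k := h.om_act e1 hw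
    by_cases w3 : w (σ 3) = 0 <;> by_cases w4 : w (σ 4) = 0
    · exact h.three₀ hF hE k wi wj e w3 w4
    · exact h.four hF hE h3 k (m := 3) w3 fun i hi => by fin_cases i <;> simp_all
    · exact h.four hF hE h3 k (m := 4) w4 fun i hi => by fin_cases i <;> simp_all
    · exact h.five hF hE k fun i => by fin_cases i <;> simp_all
  rcases no_three h.two (h.h4 hE hw) (h.tri hF hE hw) hij hik hjk (by simp [h.two, wi])
    (by simp [h.two, wj]) (by simp [h.two, wk]) with e | e | e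
  · exact key hjk hij.symm hik.symm wj wk wi e
  · exact key hik hij hjk.symm wi wk wj e
  · exact key hij hik hjk wi wj wk e

theorem two₀ {w : Fin 5 → F} (hw : Om hO K w) (w0 : w 0 ≠ 0) (w1 : w 1 ≠ 0) :
    ∃ v, Om hO K v ∧ Φ.B w v = 2 * (w 0 * w 0) ∧ 2 * (w 0 * w 0) = 1 := by
  have z := fun k a b => h.three hF hE h3 hw (i := 0) (j := 1) (k := k) (by decide) a b w0 w1
  have w2 := z 2 (by decide) (by decide)
  have w3 := z 3 (by decide) (by decide)
  have w4 := z 4 (by decide) (by decide)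
  have k := h.om_act (h.act_swap (i := 1) (j := 2) (k := 3) (l := 4) (by decide) (by decide)) hw
  have e : Φ.B w ((w ∘ swap 3 4) ∘ swap 1 2) = 2 * (w 0 * w 0) := by
    simp [h.B, Fin.sum_univ_five, swap_apply_def, w2, w3, w4]
  refine ⟨_, k, e, ?_⟩
  have := h.three hF hE h3 (h.om_r hw k) (i := 1) (j := 2) (k := 0) (by decide) (by decide) (by decide)
    (by simp [e, swap_apply_def, w0, w1, w2, h.two]) (by simp [swap_apply_def, w1, w2])
  simp only [e, Pi.sub_apply, Pi.smul_apply, Function.comp_apply, smul_eq_mul,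
    swap_apply_of_ne_of_ne (show (0 : Fin 5) ≠ 1 by decide) (show (0 : Fin 5) ≠ 2 by decide),
    swap_apply_of_ne_of_ne (show (0 : Fin 5) ≠ 3 by decide) (show (0 : Fin 5) ≠ 4 by decide)] at this
  exact mul_right_cancel₀ w0 (by linear_combination -this)

theorem tame {g : (Fin 5 → F) ≃ₗ[F] (Fin 5 → F)} (hg : g ∈ K) {i j k : Fin 5} (hjk : j ≠ k)
    (wj : g (Pi.single i 1) j ≠ 0) : g (Pi.single i 1) k = 0 := by
  by_contra wk
  have h2 := h.two
  obtain ⟨σ, ⟨a, ha, e⟩, rfl, rfl⟩ := h.exists_perm₂ hjk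
  have m := K.mul_mem ha hg
  obtain ⟨v, hv, e1, e2⟩ := h.two₀ hF hE h3 (h.om_map m (h.om_e i)) (by rwa [mul_app, e])
    (by rwa [mul_app, e])
  rw [e2, ← Fm.Iso.B_inv (h.iso m), h.B_e] at e1
  have k := h.om_map (K.inv_mem m) hv
  generalize (a * g)⁻¹ v = y at e1 k
  have y0 : y i ≠ 0 := fun e => by simp [e] at e1
  by_cases hy : ∃ j, i ≠ j ∧ y j ≠ 0
  · obtain ⟨j, hj, yj⟩ := hy
    obtain ⟨τ, e, rfl, rfl⟩ := h.exists_perm₂ hj
    obtain ⟨-, -, -, e3⟩ := h.two₀ hF hE h3 (h.om_act e k) y0 yj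
    exact one_ne_zero (α := F) (by
      simp only [Function.comp_apply] at e3
      linear_combination (2 * y (τ 0) + 1) * e1 - 2 * e3)
  · push Not at hy
    have := h.sum k
    rw [Finset.sum_eq_single i (fun j _ e => by simp [hy j e.symm]) (by simp), e1] at this
    exact h3 (by linear_combination -this)

end Tame

theorem span {w : Fin 5 → F} (hw : Om hO K w) {i j : Fin 5} (hij : i ≠ j) (wi : w i ≠ 0)
    (wj : w j ≠ 0) {v : Fin 5 → F} (hv : v ≠ 0) (U : Submodule F (Fin 5 → F))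
    (hU : ∀ c, hO.r c ∈ K → Φ.Q c ≠ 0 → Φ.B c v ≠ 0 → c ∈ U) : U = ⊤ := by
  have h2 := h.two
  obtain ⟨k, hk⟩ := Function.ne_iff.1 hv
  have hU' : ∀ c, Om hO K c → Φ.B c v ≠ 0 → c ∈ U := fun c hc => hU c hc.2 (by simp [hc.1])
  have key : ∀ m, Pi.single m 1 ∈ U := fun m => by
    by_cases vm : v m = 0
    swap
    · exact hU' _ (h.om_e m) (by simp [h.B_e, h2, vm])
    have hmk : m ≠ k := fun e => hk (e ▸ vm)
    obtain ⟨σ, e1, rfl, rfl⟩ := h.exists_perm₂ hij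
    obtain ⟨τ, ⟨g, hg, e2⟩, rfl, rfl⟩ := h.exists_perm₂ hmk
    have c1 := h.om_map (K.inv_mem hg) (h.om_act e1 hw)
    have c2 := e2 (g⁻¹ (w ∘ σ))
    rw [app_inv_app] at c2
    generalize g⁻¹ (w ∘ σ) = c at c1 c2
    have c3 : c (τ 0) ≠ 0 := fun e => wi ((congrFun c2 0).trans e)
    have c4 : c (τ 1) ≠ 0 := fun e => wj ((congrFun c2 1).trans e)
    obtain ⟨d, d1, d2, d3⟩ : ∃ d, Om hO K d ∧ d (τ 0) ≠ 0 ∧ Φ.B d v ≠ 0 := by
      by_cases e : Φ.B c v = 0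
      · refine ⟨_, h.om_r (h.om_e (τ 1)) c1, by simpa [hmk] using c3, ?_⟩
        simpa [Φ.bsimp, e, hO.σ, h.B_e, h2, c4] using hk
      · exact ⟨c, c1, c3, e⟩
    have := U.sub_mem (hU' d d1 d3) (hU' _ (h.om_r (h.om_e (τ 0)) d1) (by
      simpa [Φ.bsimp, hO.σ, h.B_e, vm] using d3))
    rwa [sub_sub_cancel, h.B_e, U.smul_mem_iff (mul_ne_zero h2 d2)] at this
  exact eq_top_iff.2 fun x _ => pi_eq_sum_univ' x ▸ U.sum_mem fun i _ => U.smul_mem _ (key i)

theorem three_cases (hF : ∀ a : F, ∃ n : ℕ, a = n) (h3 : (3 : F) = 0) {w : Fin 5 → F}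
    (q : Φ.Q w = 1) {i j : Fin 5} (hij : i ≠ j) (wi : w i ≠ 0) (wj : w j ≠ 0) :
    ∃ g ∈ K, g w = ![0, 1, 1, 1, 1] := by
  have h2 := h.two
  obtain ⟨σ, ⟨g, hg, e⟩, rfl, rfl⟩ := h.exists_perm₂ hij
  suffices ∃ m, g w m = 0 ∧ ∀ i, i ≠ m → g w i * g w i = 1 * 1 by
    obtain ⟨m, h0, h1⟩ := this
    obtain ⟨k, hk, e⟩ := h.exists_nf one_ne_zero h0 h1
    exact ⟨_, K.mul_mem hk hg, e⟩
  rw [← Fm.Iso.Q (h.iso hg), h.Q, Fin.sum_univ_five] at q
  have c : ∀ i, g w i = 0 ∨ g w i * g w i = 1 := fun i =>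
    (eq_or_ne _ _).imp_right (sq_eq_one_of_three hF h3)
  have c0 := (c 0).resolve_left (e w ▸ wi)
  have c1 := (c 1).resolve_left (e w ▸ wj)
  generalize g w = y at *
  simp only [Fin.forall_fin_succ, Fin.exists_fin_succ]
  rcases c 2 with c2 | c2 <;> rcases c 3 with c3 | c3 <;> rcases c 4 with c4 | c4 <;>
    simp [c0, c1, c2, c3, c4] at q ⊢ <;> grind

theorem main [Finite F] (hF : ∀ a : F, ∃ n : ℕ, a = n) {g : (Fin 5 → F) ≃ₗ[F] (Fin 5 → F)}
    (hg : g ∈ K) {i : Fin 5} (hi : ∀ j, g (Pi.single i 1) ≠ Pi.single j 1 ∧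
      g (Pi.single i 1) ≠ -Pi.single j 1) {w : Fin 5 → F} (q : Φ.Q w = 1) : hO.r w ∈ K := by
  have hu := h.om_map hg (h.om_e i)
  obtain ⟨j, k, hjk, uj, uk⟩ := exists_two (h.Q _ ▸ hu.1) hi
  by_cases h3 : (3 : F) = 0
  · by_cases hw : ∀ j, w ≠ Pi.single j 1 ∧ w ≠ -Pi.single j 1
    · obtain ⟨j', k', hjk', wj, wk⟩ := exists_two (h.Q _ ▸ q) hw
      obtain ⟨a, ha, e1⟩ := h.three_cases hF h3 hu.1 hjk uj uk
      obtain ⟨b, hb, e2⟩ := h.three_cases hF h3 q hjk' wj wk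
      have := (h.om_map (K.inv_mem hb) (h.om_map ha hu)).2
      rwa [e1, ← e2, inv_app_app] at this
    · simp only [not_forall, not_and_or, not_not] at hw
      obtain ⟨j, rfl | rfl⟩ := hw
      · exact h.re j
      · rw [hO.r_neg]; exact h.re j
  by_cases hE : ∀ v u, v ≠ 0 → Φ.InA K v u → Φ.Q u = 0
  · exact absurd (h.tame hF hE h3 hg hjk uj) uk
  push Not at hE
  obtain ⟨v, u, hv, e1, e2⟩ := hE
  have := hO.EG_le_of_eich hF h.two h3 h.iso hv e1 e2 (h.span hu hjk uj uk hv)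
    (hO.r_mul_r_mem (by simp) (a := w) (by simp [q]) ((h.Q_e 0).trans q.symm))
  exact (K.mul_mem_cancel_right (h.re 0)).1 this

end Fr

end Cfsg.Agent.Class.Tab
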