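import Mathlib
import Cfsg.Agent.Class.Max.Bridge
import Cfsg.Agent.Class.Max.C2U5
import Cfsg.Agent.Class.Max.N4L3

set_option autoImplicit false
set_option linter.unusedSectionVars false

namespace Cfsg.Agent.Class.Max

open Module

variable {F V : Type*} [Field F] [AddCommGroup V] [Module F V]

theorem u4_sum {i j k l : Fin 4} (hij : i ≠ j) (hik : i ≠ k) (hil : i ≠ l) (hjk : j ≠ k)
    (hjl : j ≠ l) (hkl : k ≠ l) (f : Fin 4 → F) : ∑ s, f s = f i + f j + f k + f l := by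
  rw [show (Finset.univ : Finset (Fin 4)) = {i, j, k, l} from by
      ext m; simp only [Finset.mem_univ, Finset.mem_insert, Finset.mem_singleton, true_iff]; omega,
    Finset.sum_insert (by simp [hij, hik, hil]), Finset.sum_insert (by simp [hjk, hjl]),
    Finset.sum_pair hkl, add_assoc, add_assoc]

theorem u4_two (i j : Fin 4) (hij : i ≠ j) :
    ∃ k l, i ≠ k ∧ i ≠ l ∧ j ≠ k ∧ j ≠ l ∧ k ≠ l := by revert i j; decide

theorem u4_three (i j k : Fin 4) : ∃ l, i ≠ l ∧ j ≠ l ∧ k ≠ l := by revert i j k; decide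

namespace Fm

variable {Φ : Fm F V} {M N : Subgroup (V ≃ₗ[F] V)} {u w : Fin 4 → V}

theorem Pt.smul_mu {a : V} (ha : Φ.Pt N a) {c : F} (hc : c * Φ.σ c = 1) : Φ.Pt N (c • a) :=
  ⟨by simp only [Φ.bsimp, ha.1]; linear_combination hc, fun ζ hζ => by
    rw [hm_smul ha.1 hζ hc]; exact ha.2 ζ hζ⟩

namespace IsU

variable (h : Φ.IsU) [Finite F] [FiniteDimensional F V]
include h

theorem u4_B (hu : Φ.UFrame u) {i j k l : Fin 4} (hij : i ≠ j) (hik : i ≠ k) (hil : i ≠ l)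
    (hjk : j ≠ k) (hjl : j ≠ l) (hkl : k ≠ l) (x y : V) : Φ.B x y =
      Φ.σ (Φ.B (u i) x) * Φ.B (u i) y + Φ.σ (Φ.B (u j) x) * Φ.B (u j) y +
      Φ.σ (Φ.B (u k) x) * Φ.B (u k) y + Φ.σ (Φ.B (u l) x) * Φ.B (u l) y := by
  rw [hu.B_eq_sum, u4_sum hij hik hil hjk hjl hkl]
  simp only [h.symm (u _) x]
  ring

theorem exists_mu_mul {x y : F} (e : x * Φ.σ x = y * Φ.σ y) :
    ∃ κ, κ * Φ.σ κ = 1 ∧ κ * x = y := by
  by_cases hx : x = 0
  · rw [hx, zero_mul, eq_comm, mul_eq_zero, Φ.σ_eq_zero, or_self] at e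
    exact ⟨1, by simp, by rw [hx, e, mul_zero]⟩
  · have := Φ.σ_ne hx
    exact ⟨y / x, by rw [map_div₀]; field_simp; exact e.symm, div_mul_cancel₀ _ hx⟩

section A

variable (hu : Φ.UFrame u) (h1 : mon F u ⊓ Φ.Iso ≤ N)
include hu h1

theorem u4_EG_le_of_pair {b : V} (hb : Φ.Pt N b) {i j : Fin 4} (hij : i ≠ j)
    (hi : Φ.B (u i) b ≠ 0)
    (e : Φ.B (u i) b * Φ.σ (Φ.B (u i) b) + Φ.B (u j) b * Φ.σ (Φ.B (u j) b) = 0) : Φ.EG ≤ N := by
  obtain ⟨k, l, hik, hil, hjk, hjl, hkl, hk⟩ : ∃ k l, i ≠ k ∧ i ≠ l ∧ j ≠ k ∧ j ≠ l ∧ k ≠ l ∧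
      Φ.B (u k) b ≠ 0 := by
    obtain ⟨k, l, hik, hil, hjk, hjl, hkl⟩ := u4_two i j hij
    by_cases hk : Φ.B (u k) b = 0
    · refine ⟨l, k, hil, hik, hjl, hjk, hkl.symm, fun hl => one_ne_zero (α := F) ?_⟩
      have := h.u4_B hu hij hik hil hjk hjl hkl b b
      rw [hb.1, hk, hl] at this
      linear_combination this + e
    · exact ⟨k, l, hik, hil, hjk, hjl, hkl, hk⟩
  obtain ⟨z, hz, hz'⟩ := h.exists_mu
  have hz1 : z - 1 ≠ 0 := sub_ne_zero.2 fun e => hz' (by simp [e])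
  have hP := h.pt_frame hu h1
  have hb' := (hb.map ((hP j).2 z hz) (h.hm_iso (hu.one j) hz)).map ((hP i).2 z hz)
    (h.hm_iso (hu.one i) hz)
  have e1 : Φ.hm (u i) z (Φ.hm (u j) z b) =
      b + ((z - 1) * Φ.B (u i) b) • u i + ((z - 1) * Φ.B (u j) b) • u j := by
    rw [hm_apply (hu.one i) hz, hu.B_hm i j hz hij, hm_apply (hu.one j) hz]
    abel
  rw [e1] at hb'
  refine h.EG_le_of_zeros₂ hu h1 (fun e => ?_) hkl ?_ ?_ (h.inA_of_pt hb hb' ?_ hz) ?_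
  · have := congrArg (Φ.B (u i)) e
    simp only [Φ.bsimp, hu.one, hu.perp i j hij] at this
    exact mul_ne_zero hz1 hi (by linear_combination -this)
  · simp [hu.perp k i hik.symm, hu.perp k j hjk.symm]
  · simp [hu.perp l i hil.symm, hu.perp l j hjl.symm]
  · simp only [Φ.bsimp, hb.1, h.symm (u _) b]
    linear_combination (z - 1) * e
  · rw [Φ.B_smul_right]
    exact mul_ne_zero hz1 hk

theorem u4_exists_inA {a : V} (ha : Φ.Pt N a) {p r : Fin 4} (hpr : p ≠ r)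
    (hp : Φ.B (u p) a ≠ 0) (hr : Φ.B (u r) a ≠ 0)
    (hc : 1 - Φ.B (u p) a * Φ.σ (Φ.B (u p) a) - Φ.B (u r) a * Φ.σ (Φ.B (u r) a) ≠ 0) :
    ∃ v, v ≠ 0 ∧ ∀ t : F, Φ.InA N v (t • a) := by
  set np := Φ.B (u p) a * Φ.σ (Φ.B (u p) a) with hnp
  set nr := Φ.B (u r) a * Φ.σ (Φ.B (u r) a) with hnr
  have s1 : Φ.σ np = np := by rw [hnp, map_mul, Φ.invol, mul_comm]
  have s2 : Φ.σ nr = nr := by rw [hnr, map_mul, Φ.invol, mul_comm]
  obtain ⟨z, y, hz, hy, z1, e⟩ := exists_trace_pair Φ.invol h.card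
    (mul_ne_zero (mul_ne_zero hp (Φ.σ_ne hp)) (mul_ne_zero hr (Φ.σ_ne hr))) hc
    (r := 1 + (1 - np - nr) * (1 - np - nr) - np * np - nr * nr)
    (by simp only [Φ.bsimp, s1, s2]) 1
  rw [← hnp, ← hnr] at e
  obtain ⟨κ, hκ, eκ⟩ := h.exists_mu_mul (x := np * z + nr) (y := y - (1 - np - nr)) (by
    simp only [Φ.bsimp, s1, s2] at e ⊢
    linear_combination e + np * np * hz - hy)
  have hP := h.pt_frame hu h1
  have hκz := mu_mul hκ hz
  have ha' := ((ha.map ((hP r).2 κ hκ) (h.hm_iso (hu.one r) hκ)).map ((hP p).2 _ hκz)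
    (h.hm_iso (hu.one p) hκz)).smul_mu (mu_conj hy)
  have e1 : Φ.hm (u p) (κ * z) (Φ.hm (u r) κ a) =
      a + ((κ * z - 1) * Φ.B (u p) a) • u p + ((κ - 1) * Φ.B (u r) a) • u r := by
    rw [hm_apply (hu.one p) hκz, hu.B_hm p r hκ hpr, hm_apply (hu.one r) hκ]
    abel
  rw [e1] at ha'
  obtain ⟨ζ, hζ, hζ'⟩ := h.exists_mu
  have hζ1 : ζ - 1 ≠ 0 := sub_ne_zero.2 fun e => hζ' (by simp [e])
  have h2 := h.inA_of_pt ha ha' (by
    simp only [Φ.bsimp, ha.1, h.symm (u _) a]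
    linear_combination Φ.σ y * eκ + hy) hζ
  refine ⟨_, fun e => z1 ?_, h.inA_smul ha ?_ h2 (by simpa [ha.1] using hζ1)⟩
  · have e2 := congrArg (Φ.B (u p)) e
    have e3 := congrArg (Φ.B (u r)) e
    simp only [Φ.bsimp, hu.one, hu.perp p r hpr, hu.perp r p hpr.symm] at e2 e3
    have e4 : Φ.σ y * (κ * z) = 1 := mul_right_cancel₀ hp (by linear_combination -e2)
    have e5 : Φ.σ y * κ = 1 := mul_right_cancel₀ hr (by linear_combination -e3)
    linear_combination e4 - z * e5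
  · have := Φ.perp_symm h2.perp
    rwa [Φ.B_smul_left, mul_eq_zero, Φ.σ_eq_zero, or_iff_right hζ1] at this

theorem u4_EG_le_of_inA {a v : V} (ha : Φ.B a a = 1) (hv : ∀ t : F, Φ.InA N v (t • a))
    {i j k : Fin 4} (hij : i ≠ j) (hik : i ≠ k) (hjk : j ≠ k) (hi : Φ.B (u i) v ≠ 0)
    (hΔ : Φ.B (u k) v * Φ.B (u j) a - Φ.B (u k) a * Φ.B (u j) v ≠ 0) : Φ.EG ≤ N := by
  have hv0 := (hv 1).choose_spec.1.sing
  have hva : Φ.B v a = 0 := by simpa using (hv 1).perp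
  have lam : ∀ c, Φ.π c = 0 → Φ.HasE N v 0 c := fun c hc => by
    obtain ⟨t, rfl⟩ := h.exists_lam_eq hc
    simpa [ha] using (hv 1).comm (hv t)
  obtain ⟨z, hz, hz'⟩ := h.exists_mu
  have hz1 : z - 1 ≠ 0 := sub_ne_zero.2 fun e => hz' (by simp [e])
  obtain ⟨κ, hκ, hx⟩ : ∃ κ, κ * Φ.σ κ = -1 ∧ (Φ.B (u k) v - κ * Φ.B (u j) v) * Φ.B (u i) a -
      (Φ.B (u k) a - κ * Φ.B (u j) a) * Φ.B (u i) v ≠ 0 := by
    by_contra hc
    push Not at hc
    obtain ⟨κ, hκ⟩ := h.norm (-1) (by simp)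
    have κ0 : κ ≠ 0 := fun e => by simp [e] at hκ
    have e1 := hc κ hκ
    have e2 := hc (κ * z) (by rw [map_mul]; linear_combination z * Φ.σ z * hκ - hz)
    have e3 : Φ.B (u j) v * Φ.B (u i) a - Φ.B (u j) a * Φ.B (u i) v = 0 :=
      (mul_eq_zero.1 (by linear_combination e1 - e2)).resolve_left (mul_ne_zero κ0 hz1)
    exact mul_ne_zero hΔ hi (by linear_combination Φ.B (u j) v * e1 +
      (κ * Φ.B (u j) v - Φ.B (u k) v) * e3)
  set l := Φ.B (u k) v - κ * Φ.B (u j) v with hl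
  set m := Φ.B (u k) a - κ * Φ.B (u j) a with hm
  set x := l * Φ.B (u i) a - m * Φ.B (u i) v with ex
  have hx' := Φ.σ_ne hx
  obtain ⟨s, s0, hs⟩ : ∃ s, s ≠ 0 ∧ s * x + Φ.σ (s * x) + s * Φ.σ s * (l * Φ.σ l) = 0 := by
    by_cases l0 : l = 0
    · obtain ⟨c, c0, hc⟩ := h.exists_lam
      rw [h.pi] at hc
      exact ⟨c / x, div_ne_zero c0 hx, by rw [div_mul_cancel₀ _ hx, l0, hc]; simp⟩
    obtain ⟨ρ, hρ⟩ : ∃ ρ, ρ + Φ.σ ρ ≠ 0 := by
      by_contra hc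
      push Not at hc
      have e1 := hc 1
      rw [map_one] at e1
      exact hz' (by linear_combination hc z - z * e1)
    have ρ0 : ρ ≠ 0 := fun e => hρ (by simp [e])
    have := Φ.σ_ne ρ0
    have := Φ.σ_ne l0
    refine ⟨-((ρ + Φ.σ ρ) * Φ.σ x / (Φ.σ ρ * (l * Φ.σ l))), neg_ne_zero.2 (div_ne_zero
      (mul_ne_zero hρ hx') (by positivity)), ?_⟩
    simp only [Φ.bsimp]
    field_simp
    ring
  have hvi : Φ.B v (u i) ≠ 0 := Φ.ne_symm hi
  obtain ⟨c, hc, e⟩ := exists_ef_eq hv0 hvi (y := u i + s • (l • a - m • v))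
    (by simp [hva, Φ.B_self hv0]) (by
      simp only [h.Q_eq, Φ.bsimp, ha, hva, Φ.perp_symm hva, Φ.B_self hv0, h.symm (u i) a,
        h.symm (u i) v, ex] at hs ⊢
      linear_combination hs)
  obtain ⟨g, hg, eg⟩ := InA.hasE (M := N) (by
    convert (hv ((Φ.B v (u i))⁻¹ * s * l)).add (inA_smul_self hv0 (-((Φ.B v (u i))⁻¹ * s * m)))
      using 1
    module) lam hc
  have hb := (h.pt_frame hu h1 i).map hg (hc.mem_Iso eg)
  rw [eg, e] at hb
  have e1 : Φ.B (u j) (u i + s • (l • a - m • v)) =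
      s * (Φ.B (u k) v * Φ.B (u j) a - Φ.B (u k) a * Φ.B (u j) v) := by
    simp only [Φ.bsimp, hu.perp j i hij.symm, hl, hm]; ring
  have e2 : Φ.B (u k) (u i + s • (l • a - m • v)) =
      κ * (s * (Φ.B (u k) v * Φ.B (u j) a - Φ.B (u k) a * Φ.B (u j) v)) := by
    simp only [Φ.bsimp, hu.perp k i hik.symm, hl, hm]; ring
  refine h.u4_EG_le_of_pair hu h1 hb hjk (by rw [e1]; exact mul_ne_zero s0 hΔ) ?_
  rw [e1, e2, map_mul Φ.σ κ]
  linear_combination (s * (Φ.B (u k) v * Φ.B (u j) a - Φ.B (u k) a * Φ.B (u j) v) *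
    Φ.σ (s * (Φ.B (u k) v * Φ.B (u j) a - Φ.B (u k) a * Φ.B (u j) v))) * hκ

/-- A proper overgroup of the full monomial group contains the special unitary group. -/
theorem EG_le_of_mon₄ (h2 : N ≤ Φ.Iso) {g : V ≃ₗ[F] V} (hg : g ∈ N) (hg' : g ∉ mon F u) :
    Φ.EG ≤ N := by
  obtain ⟨a, ha, h3⟩ := h.exists_pt_two hu h1 h2 hg hg'
  obtain ⟨a, ha, h3⟩ := h.exists_pt_three hu h1 (by simp) ha h3
  obtain ⟨p, r, t, hp, hr, ht, hpr, hpt, hrt⟩ := Finset.two_lt_card_iff.1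
    (show 2 < (Φ.spt u a).card by omega)
  rw [mem_spt] at hp hr ht
  obtain ⟨l, hpl, hrl, htl⟩ := u4_three p r t
  by_contra hc
  obtain ⟨v, v0, hv⟩ := h.u4_exists_inA hu h1 ha hpr hp hr fun e => by
    have := h.u4_B hu hpr hpt hpl hrt hrl htl a a
    rw [ha.1] at this
    exact hc (h.u4_EG_le_of_pair hu h1 ha htl ht (by linear_combination e - this))
  have hv0 := (hv 1).choose_spec.1.sing
  have key : ∀ i j k, i ≠ j → i ≠ k → j ≠ k → Φ.B (u i) v ≠ 0 →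
      Φ.B (u k) v * Φ.B (u j) a = Φ.B (u k) a * Φ.B (u j) v := fun i j k hij hik hjk hi =>
    by_contra fun e => hc (h.u4_EG_le_of_inA hu h1 ha.1 hv hij hik hjk hi (sub_ne_zero.2 e))
  obtain ⟨i, hi⟩ : ∃ i, Φ.B (u i) v ≠ 0 := by
    by_contra hc
    push Not at hc
    exact v0 (hu.span v hc)
  obtain ⟨j, hij, hj⟩ : ∃ j, i ≠ j ∧ Φ.B (u j) v ≠ 0 := by
    by_contra hc
    push Not at hc
    obtain ⟨j, hij⟩ := exists_ne i
    obtain ⟨k, l, hik, hil, hjk, hjl, hkl⟩ := u4_two i j hij.symm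
    have := h.u4_B hu hij.symm hik hil hjk hjl hkl v v
    rw [Φ.B_self hv0, hc j hij.symm, hc k hik, hc l hil] at this
    exact mul_ne_zero (Φ.σ_ne hi) hi (by linear_combination -this)
  obtain ⟨k, hik, hjk, hk⟩ : ∃ k, i ≠ k ∧ j ≠ k ∧ Φ.B (u k) a ≠ 0 := by
    by_cases e1 : i ≠ p ∧ j ≠ p
    · exact ⟨p, e1.1, e1.2, hp⟩
    by_cases e2 : i ≠ r ∧ j ≠ r
    · exact ⟨r, e2.1, e2.2, hr⟩
    · exact ⟨t, by omega, by omega, ht⟩
  have e1 := key i j k hij hik hjk hi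
  have hk' : Φ.B (u k) v ≠ 0 := fun e => mul_ne_zero hk hj (by rw [← e1, e, zero_mul])
  have e2 : ∀ m, Φ.B (u m) (Φ.B (u k) v • a - Φ.B (u k) a • v) = 0 := fun m => by
    simp only [Φ.bsimp]
    by_cases h3 : m = k
    · rw [h3]; ring
    by_cases h4 : m = i
    · rw [h4]; exact sub_eq_zero.2 (key j i k hij.symm hjk hik hj)
    · exact sub_eq_zero.2 (key i m k (Ne.symm h4) hik h3 hi)
  have e3 := congrArg (Φ.B a) (hu.span _ e2)
  have hva : Φ.B v a = 0 := by simpa using (hv 1).perp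
  simp only [Φ.bsimp, ha.1, Φ.perp_symm hva] at e3
  exact hk' (by linear_combination e3)

end A

theorem u4_z2 {ζ : F} (hζ : ζ * Φ.σ ζ = 1) (h4 : ζ ^ 4 ≠ 1) (h3 : ζ ^ 3 ≠ 1) :
    Φ.Z2 (Fin 4) M := by
  classical
  intro u w hu hw hD i j m hij h1 h2
  have hζ' : Φ.σ ζ ≠ ζ := fun e => h4 (by rw [e] at hζ; linear_combination (ζ * ζ + 1) * hζ)
  have h5 : 1 + ζ + Φ.σ ζ ≠ 0 := fun e => h3 (by linear_combination (ζ - 1) * ζ * e - (ζ - 1) * hζ)
  have key : ∀ {i j : Fin 4}, i ≠ j → Φ.B (u i) (w m) = 0 → Φ.B (u j) (w m) = 0 →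
      Φ.dd u i j ζ ∈ mon F w ∧ (Φ.spt w (u i)).card = 2 := fun {i j} hij h1 h2 => by
    have h3 := hw.pt _ (hu.le (hu.frame.dd_mem (i := i) (j := j) hζ h)) m m 1
      (by simp [hu.frame.dd_apply hij hζ, h1, h2])
    refine ⟨h3, le_antisymm ((hu.frame.spt_le_of_dd hw.frame hij hζ hζ' h3).2 h5) ?_⟩
    by_contra hc
    obtain ⟨p, c, e⟩ := hw.frame.exists_eq_smul (hu.frame.ne_zero i) (by omega)
    exact hD.symm hu.frame i p c e
  obtain ⟨⟨π, hπ⟩, c1⟩ := key hij h1 h2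
  have c2 := (key hij.symm h2 h1).2
  have m1 : m ∉ Φ.spt w (u i) := fun e => mem_spt.1 e (Φ.perp_symm h1)
  have m2 : m ∉ Φ.spt w (u j) := fun e => mem_spt.1 e (Φ.perp_symm h2)
  obtain ⟨p, hp⟩ : (Φ.spt w (u i) ∩ Φ.spt w (u j)).Nonempty := by
    rw [← Finset.card_pos]
    have e1 := Finset.card_union_add_card_inter (Φ.spt w (u i)) (Φ.spt w (u j))
    have e2 := Finset.card_le_card (s := Φ.spt w (u i) ∪ Φ.spt w (u j)) (t := Finset.univ.erase m)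
      fun x hx => Finset.mem_erase.2 ⟨fun e => by simp [e, m1, m2] at hx, Finset.mem_univ _⟩
    rw [Finset.card_erase_of_mem (Finset.mem_univ _), Finset.card_univ, Fintype.card_fin] at e2
    omega
  have k1 : ∀ r, ∃ c, c ≠ 0 ∧ ζ * Φ.B (u i) (w r) = c * Φ.B (u i) (w (π r)) ∧
      Φ.σ ζ * Φ.B (u j) (w r) = c * Φ.B (u j) (w (π r)) := fun r => by
    obtain ⟨c, hc, e⟩ := hπ r
    refine ⟨c, hc, by rw [← hu.frame.B_dd_fst hij hζ, e, Φ.B_smul_right], ?_⟩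
    rw [← Φ.B_smul_right c, ← e]
    simp only [hu.frame.dd_apply hij hζ, Φ.bsimp, hu.frame.one, hu.frame.perp j i hij.symm]
    ring
  have p1 := Φ.ne_symm (mem_spt.1 (Finset.mem_inter.1 hp).1)
  have p2 := Φ.ne_symm (mem_spt.1 (Finset.mem_inter.1 hp).2)
  have ζ0 := ne_zero_of_mu hζ
  have st : ∀ r, Φ.B (u i) (w r) ≠ 0 → Φ.B (u i) (w (π r)) ≠ 0 := fun r hr e => by
    obtain ⟨c, -, e1, -⟩ := k1 r
    exact mul_ne_zero ζ0 hr (by rw [e1, e, mul_zero])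
  have hpp : π (π p) = p := by
    by_contra hc
    have n1 : π p ≠ p := fun e => hc (by rw [e, e])
    have := Finset.card_le_card (s := {p, π p, π (π p)}) (t := Φ.spt w (u i)) fun x hx => by
      simp only [Finset.mem_insert, Finset.mem_singleton] at hx
      rcases hx with rfl | rfl | rfl
      exacts [mem_spt.2 (Φ.ne_symm p1), mem_spt.2 (Φ.ne_symm (st _ p1)),
        mem_spt.2 (Φ.ne_symm (st _ (st _ p1)))]
    rw [Finset.card_eq_three.2 ⟨_, _, _, n1.symm, Ne.symm hc, (π.injective.ne n1).symm, rfl⟩] at this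
    omega
  obtain ⟨c, -, e1, e2⟩ := k1 p
  obtain ⟨c', -, e3, e4⟩ := k1 (π p)
  rw [hpp] at e3 e4
  have e5 : ζ * ζ = c * c' := mul_right_cancel₀ p1 (by linear_combination ζ * e1 + c * e3)
  have e6 : Φ.σ ζ * Φ.σ ζ = c * c' :=
    mul_right_cancel₀ p2 (by linear_combination Φ.σ ζ * e2 + c * e4)
  exact h4 (by linear_combination ζ * ζ * (e5 - e6) + (ζ * Φ.σ ζ + 1) * hζ)

omit [Finite F] in
/-- Eigenvalues of an element diagonal for one frame and monomial for another. -/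
theorem u4_sq_eq (hu : Φ.UFrame u) (hw : Φ.UFrame w) (hne : ∀ i m, Φ.B (u i) (w m) ≠ 0)
    {x : V ≃ₗ[F] V} (hx : x ∈ mon F w) {s t r : Fin 4} (hst : s ≠ t) {a b : F} (a0 : a ≠ 0)
    (hs : ∀ y, Φ.B (u s) (x y) = a * Φ.B (u s) y) (ht : ∀ y, Φ.B (u t) (x y) = a * Φ.B (u t) y)
    (hr : ∀ y, Φ.B (u r) (x y) = b * Φ.B (u r) y) : b * b = a * a := by
  obtain ⟨π, hπ⟩ := hx
  choose c hc e using hπ
  have k : ∀ {i : Fin 4} {d : F}, (∀ y, Φ.B (u i) (x y) = d * Φ.B (u i) y) → ∀ m,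
      d * Φ.B (u i) (w m) = c m * Φ.B (u i) (w (π m)) := fun hi m => by
    rw [← hi, e, Φ.B_smul_right]
  obtain ⟨m, hm⟩ : ∃ m, Φ.B (u s) (w m) * Φ.B (u t) (w 0) ≠ Φ.B (u t) (w m) * Φ.B (u s) (w 0) := by
    by_contra hc
    push Not at hc
    have := hw.span (Φ.σ (Φ.B (u t) (w 0)) • u s - Φ.σ (Φ.B (u s) (w 0)) • u t) fun m => by
      have := congrArg Φ.σ (hc m)
      simp only [Φ.bsimp, h.symm (u _) (w m)] at this ⊢
      linear_combination this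
    have := congrArg (Φ.B (u s)) this
    simp only [Φ.bsimp, hu.one, hu.perp s t hst] at this
    exact Φ.σ_ne (hne t 0) (by linear_combination this)
  obtain ⟨p, hp⟩ := exists_sq_fix (by simp) π
    (P := fun m => Φ.B (u s) (w m) * Φ.B (u t) (w 0) ≠ Φ.B (u t) (w m) * Φ.B (u s) (w 0))
    (fun m => not_congr ⟨fun e => mul_left_cancel₀ (hc m) (by
        linear_combination a * e - Φ.B (u t) (w 0) * k hs m + Φ.B (u s) (w 0) * k ht m),
      fun e => mul_left_cancel₀ a0 (by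
        linear_combination c m * e + Φ.B (u t) (w 0) * k hs m - Φ.B (u s) (w 0) * k ht m)⟩)
    hm (s := 0) (by simp [mul_comm])
  have e1 := k hs p
  have e2 := k hs (π p)
  have e3 := k hr p
  have e4 := k hr (π p)
  rw [hp] at e2 e4
  have e5 : a * a = c p * c (π p) := mul_right_cancel₀ (hne s p) (by
    linear_combination a * e1 + c p * e2)
  have e6 : b * b = c p * c (π p) := mul_right_cancel₀ (hne r p) (by
    linear_combination b * e3 + c p * e4)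
  rw [e5, e6]

theorem u4_false_of_z1 (hZ : Φ.Z1 (Fin 4) M) {θ : F} (hθ : θ * Φ.σ θ = 1) (h4 : θ ^ 4 ≠ 1)
    (hu : Φ.Blk M u) (hw : Φ.Blk M w) (hD : Dis F u w) : False := by
  have hf := hu.frame
  have hne := hZ u w hu hw hD
  have n01 : (0 : Fin 4) ≠ 1 := by decide
  have n02 : (0 : Fin 4) ≠ 2 := by decide
  have n03 : (0 : Fin 4) ≠ 3 := by decide
  have n12 : (1 : Fin 4) ≠ 2 := by decide
  have n13 : (1 : Fin 4) ≠ 3 := by decide
  have n23 : (2 : Fin 4) ≠ 3 := by decide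
  set β := Φ.B (u 0) (w 0) * Φ.σ (Φ.B (u 1) (w 0)) with hβ
  set γ := Φ.B (u 2) (w 0) * Φ.σ (Φ.B (u 3) (w 0)) with hγ
  have β0 : β ≠ 0 := mul_ne_zero (hne 0 0) (Φ.σ_ne (hne 1 0))
  have γ0 : γ ≠ 0 := mul_ne_zero (hne 2 0) (Φ.σ_ne (hne 3 0))
  let y : F → F → F → V ≃ₗ[F] V := fun η ζ ξ =>
    Φ.dd u 0 2 η * Φ.dd u 1 3 η * (Φ.sw u 0 1 ζ * Φ.sw u 2 3 ξ)
  have cy : ∀ {η ζ ξ : F}, η * Φ.σ η = 1 → ζ * Φ.σ ζ = 1 → ξ * Φ.σ ξ = 1 → ∀ v,
      Φ.B (u 0) (y η ζ ξ v) = η * Φ.σ ζ * Φ.B (u 1) v ∧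
      Φ.B (u 1) (y η ζ ξ v) = η * ζ * Φ.B (u 0) v ∧
      Φ.B (u 2) (y η ζ ξ v) = Φ.σ η * Φ.σ ξ * Φ.B (u 3) v ∧
      Φ.B (u 3) (y η ζ ξ v) = Φ.σ η * ξ * Φ.B (u 2) v := fun {η ζ ξ} hη hζ hξ v => by
    have s0 := hf.B_sw_fst n01 hζ (Φ.sw u 2 3 ξ v)
    have s1 := hf.B_sw_snd n01 hζ (Φ.sw u 2 3 ξ v)
    have s2 := hf.B_sw n01 hζ n02.symm n12.symm (Φ.sw u 2 3 ξ v)
    have s3 := hf.B_sw n01 hζ n03.symm n13.symm (Φ.sw u 2 3 ξ v)
    rw [hf.B_sw n23 hξ n12 n13] at s0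
    rw [hf.B_sw n23 hξ n02 n03] at s1
    rw [hf.B_sw_fst n23 hξ] at s2
    rw [hf.B_sw_snd n23 hξ] at s3
    simp only [y, mul_app, hf.dd_apply n02 hη, hf.dd_apply n13 hη, Φ.bsimp, hf.one, s0, s1, s2, s3,
      hf.perp _ _ n01, hf.perp _ _ n02, hf.perp _ _ n03, hf.perp _ _ n12, hf.perp _ _ n13,
      hf.perp _ _ n23, hf.perp _ _ n01.symm, hf.perp _ _ n02.symm, hf.perp _ _ n03.symm,
      hf.perp _ _ n12.symm, hf.perp _ _ n13.symm, hf.perp _ _ n23.symm]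
    refine ⟨by ring, by ring, by ring, by ring⟩
  have my : ∀ {η ζ ξ : F}, η * Φ.σ η = 1 → ζ * Φ.σ ζ = 1 → ξ * Φ.σ ξ = 1 →
      η * (β * ζ + Φ.σ (β * ζ)) + Φ.σ η * (γ * ξ + Φ.σ (γ * ξ)) = 0 → y η ζ ξ ∈ mon F w :=
    fun {η ζ ξ} hη hζ hξ e => by
      have hy : y η ζ ξ ∈ M := M.mul_mem (M.mul_mem (hu.le (hf.dd_mem hη h)) (hu.le (hf.dd_mem hη h)))
        (hu.le ⟨(mon F u).mul_mem (hf.sw_mem n01 hζ) (hf.sw_mem n23 hξ),
          h.mem_EG (Φ.Iso.mul_mem (hf.sw_iso n01 hζ h) (hf.sw_iso n23 hξ h))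
          (by rw [det_mul_equiv, hf.sw_det n01 hζ, hf.sw_det n23 hξ]; ring)⟩)
      refine not_not.1 fun hc => hZ _ _ hw (hw.map hy) (hw.dis hy hc) 0 0 ?_
      obtain ⟨e0, e1, e2, e3⟩ := cy hη hζ hξ (w 0)
      rw [h.u4_B hf n01 n02 n03 n12 n13 n23, e0, e1, e2, e3]
      simp only [hβ, hγ, Φ.bsimp] at e
      linear_combination e
  have o1 : (1 : F) * Φ.σ 1 = 1 := by simp
  have k1 : ∀ {ζ ξ : F}, ζ * Φ.σ ζ = 1 → ξ * Φ.σ ξ = 1 →
      β * ζ + Φ.σ (β * ζ) + (γ * ξ + Φ.σ (γ * ξ)) = 0 →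
      Φ.σ (β * ζ) = β * ζ ∧ Φ.σ (γ * ξ) = γ * ξ ∧ β * ζ + Φ.σ (β * ζ) ≠ 0 := by
    intro ζ ξ hζ hξ e
    have m1 := my o1 hζ hξ (by simpa using e)
    have n0 : β * ζ + Φ.σ (β * ζ) ≠ 0 := fun e0 => by
      have m2 := my hθ hζ hξ (by linear_combination Φ.σ θ * e + (θ - Φ.σ θ) * e0)
      have := h.u4_sq_eq hf hw.frame hne ((mon F w).mul_mem m2 m1) n01 (r := 2)
        (ne_zero_of_mu hθ) (b := Φ.σ θ)
        (fun v => by
          rw [mul_app, (cy hθ hζ hξ _).1, (cy o1 hζ hξ _).2.1]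
          linear_combination θ * Φ.B (u 0) v * hζ)
        (fun v => by
          rw [mul_app, (cy hθ hζ hξ _).2.1, (cy o1 hζ hξ _).1]
          linear_combination θ * Φ.B (u 1) v * hζ)
        (fun v => by
          rw [mul_app, (cy hθ hζ hξ _).2.2.1, (cy o1 hζ hξ _).2.2.2, map_one]
          linear_combination Φ.σ θ * Φ.B (u 2) v * hξ)
      exact h4 (by linear_combination -(θ * θ) * this + (θ * Φ.σ θ + 1) * hθ)
    have hβ' := Φ.σ_ne β0
    have hγ' := Φ.σ_ne γ0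
    refine ⟨?_, ?_, n0⟩
    · have hζ' : Φ.σ (β * ζ) / β * Φ.σ (Φ.σ (β * ζ) / β) = 1 := by
        simp only [Φ.bsimp]; field_simp; linear_combination hζ
      have m2 := my o1 hζ' hξ (by
        rw [mul_div_cancel₀ _ β0, Φ.invol, map_one]; linear_combination e)
      have := h.u4_sq_eq hf hw.frame hne ((mon F w).mul_mem m1 m2) n23 (r := 0)
        one_ne_zero (b := Φ.σ ζ * (Φ.σ (β * ζ) / β))
        (fun v => by
          rw [mul_app, (cy o1 hζ hξ _).2.2.1, (cy o1 hζ' hξ _).2.2.2, map_one]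
          linear_combination Φ.B (u 2) v * hξ)
        (fun v => by
          rw [mul_app, (cy o1 hζ hξ _).2.2.2, (cy o1 hζ' hξ _).2.2.1, map_one]
          linear_combination Φ.B (u 3) v * hξ)
        (fun v => by
          rw [mul_app, (cy o1 hζ hξ _).1, (cy o1 hζ' hξ _).2.1]
          ring)
      field_simp at this
      refine (mul_eq_zero.1 (?_ : (Φ.σ (β * ζ) - β * ζ) * (β * ζ + Φ.σ (β * ζ)) = 0)).elim
        sub_eq_zero.1 fun e => absurd e n0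
      linear_combination ζ * ζ * this - Φ.σ (β * ζ) ^ 2 * (ζ * Φ.σ ζ + 1) * hζ
    · have hξ' : Φ.σ (γ * ξ) / γ * Φ.σ (Φ.σ (γ * ξ) / γ) = 1 := by
        simp only [Φ.bsimp]; field_simp; linear_combination hξ
      have m2 := my o1 hζ hξ' (by
        rw [mul_div_cancel₀ _ γ0, Φ.invol, map_one]; linear_combination e)
      have := h.u4_sq_eq hf hw.frame hne ((mon F w).mul_mem m1 m2) n01 (r := 2)
        one_ne_zero (b := Φ.σ ξ * (Φ.σ (γ * ξ) / γ))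
        (fun v => by
          rw [mul_app, (cy o1 hζ hξ _).1, (cy o1 hζ hξ' _).2.1]
          linear_combination Φ.B (u 0) v * hζ)
        (fun v => by
          rw [mul_app, (cy o1 hζ hξ _).2.1, (cy o1 hζ hξ' _).1]
          linear_combination Φ.B (u 1) v * hζ)
        (fun v => by
          rw [mul_app, (cy o1 hζ hξ _).2.2.1, (cy o1 hζ hξ' _).2.2.2, map_one]
          ring)
      field_simp at this
      refine (mul_eq_zero.1 (?_ : (Φ.σ (γ * ξ) - γ * ξ) * (γ * ξ + Φ.σ (γ * ξ)) = 0)).elim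
        sub_eq_zero.1 fun e' => absurd (by linear_combination e - e') n0
      linear_combination ξ * ξ * this - Φ.σ (γ * ξ) ^ 2 * (ξ * Φ.σ ξ + 1) * hξ
  obtain ⟨ζ, ξ, hζ, hξ, -, e⟩ := exists_trace_pair Φ.invol h.card β0 γ0 (map_zero _) 0
  obtain ⟨e1, e2, e3⟩ := k1 hζ hξ e
  rw [e1, e2] at e
  rw [e1, ← two_mul] at e3
  have e4 : γ * ξ = -(β * ζ) := mul_left_cancel₀ (left_ne_zero_of_mul e3) (by linear_combination e)
  have e5 := (k1 (mu_mul hζ hθ) (mu_mul hξ hθ) (by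
    rw [← mul_assoc, ← mul_assoc, e4]; simp only [Φ.bsimp]; ring)).1
  rw [← mul_assoc, map_mul, e1] at e5
  have e6 := mul_left_cancel₀ (right_ne_zero_of_mul e3) e5
  rw [e6] at hθ
  exact h4 (by linear_combination (θ * θ + 1) * hθ)

theorem isMaximalIn_four {D : Fin 4 → Submodule F V} (hD : Φ.ODec D)
    (h1 : ∀ i, finrank F (D i) = 1) (hn : finrank F V = 4)
    (hq : (∀ c, Φ.σ c = c → c = 0 ∨ c = 1) ∨ ∃ ζ, ζ * Φ.σ ζ = 1 ∧ ζ ^ 4 ≠ 1 ∧ ζ ^ 3 ≠ 1) :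
    Geo.IsMaximalIn Φ.EG (Φ.HE D) := by
  refine h.isMaximalIn_one' hD h1 hn.ge (fun u hu N h2 h3 g hg hg' =>
    h.EG_le_of_mon₄ hu h2 h3 hg hg') fun M u w hu hw hD => ?_
  rcases hq with hq | ⟨ζ, hζ, h4, h3⟩
  swap
  · exact h.u4_false_of_z1 (h.z1_of_root (h.u4_z2 hζ h4 h3) (by simp) hζ (by rwa [hn])) hζ h4
      hu hw hD
  have two : (2 : F) = 0 := (hq 2 (map_ofNat _ 2)).resolve_right fun e =>
    one_ne_zero (α := F) (by linear_combination e)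
  have nm : ∀ x, x ≠ 0 → Φ.σ x * x = 1 := fun x hx =>
    (hq _ (by rw [map_mul, Φ.invol, mul_comm])).resolve_left (mul_ne_zero (Φ.σ_ne hx) hx)
  have hZ : Φ.Z2 (Fin 4) M := fun u w hu hw hD i j m hij e1 e2 => by
    obtain ⟨k, l, hik, hil, hjk, hjl, hkl⟩ := u4_two i j hij
    have e := h.u4_B hu.frame hij hik hil hjk hjl hkl (w m) (w m)
    rw [hw.frame.one, e1, e2] at e
    have k1 : ∀ {k l : Fin 4}, i ≠ k → i ≠ l → j ≠ k → j ≠ l → k ≠ l → Φ.B (u k) (w m) ≠ 0 :=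
      fun {k l} hik hil hjk hjl hkl e3 => hD m l (Φ.B (u l) (w m)) (hu.frame.ext fun p => by
        by_cases hp : p = l
        · simp [hp, hu.frame.one]
        · rw [Φ.B_smul_right, hu.frame.perp p l hp, mul_zero]
          rcases (by omega : p = i ∨ p = j ∨ p = k) with rfl | rfl | rfl <;> assumption)
    rw [nm _ (k1 hik hil hjk hjl hkl), nm _ (k1 hil hik hjl hjk hkl.symm)] at e
    exact one_ne_zero (α := F) (by linear_combination e + two)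
  obtain ⟨ζ, hζ, hζ'⟩ := h.exists_mu
  have hZ1 := h.z1_of_root hZ (by simp) hζ (fun e => hζ' (by
    rw [hn] at e
    have : (ζ - 1) ^ 4 = 0 := by
      linear_combination e + (-2 * ζ ^ 3 + 3 * ζ ^ 2 - 2 * ζ + 1) * two
    rw [sub_eq_zero.1 (pow_eq_zero_iff (by norm_num) |>.1 this), map_one])) u w hu hw hD
  have e := h.u4_B hu.frame (i := 0) (j := 1) (k := 2) (l := 3) (by decide) (by decide) (by decide)
    (by decide) (by decide) (by decide) (w 0) (w 0)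
  rw [hw.frame.one, nm _ (hZ1 0 0), nm _ (hZ1 1 0), nm _ (hZ1 2 0), nm _ (hZ1 3 0)] at e
  exact one_ne_zero (α := F) (by linear_combination e + 2 * two)

end IsU

theorem exists_mu_three_four [Finite F] (hc : 5 ≤ Nat.card {z : F // z * Φ.σ z = 1}) :
    ∃ ζ, ζ * Φ.σ ζ = 1 ∧ ζ ^ 4 ≠ 1 ∧ ζ ^ 3 ≠ 1 := by
  classical
  have := Fintype.ofFinite F
  rw [Nat.subtype_card (Finset.univ.filter fun z : F => z * Φ.σ z = 1) (by simp)] at hc
  have key : ∀ n, 0 < n → n ≤ 4 → ∃ z, z * Φ.σ z = 1 ∧ z ^ n ≠ 1 := fun n h0 h4 => by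
    by_contra hn
    push Not at hn
    have := (Finset.card_le_card (s := Finset.univ.filter fun z : F => z * Φ.σ z = 1)
      (t := (Polynomial.nthRoots n (1 : F)).toFinset) fun z hz => by
        rw [Multiset.mem_toFinset, Polynomial.mem_nthRoots h0]
        exact hn z (Finset.mem_filter.1 hz).2).trans
      ((Multiset.toFinset_card_le _).trans (Polynomial.card_nthRoots _ _))
    omega
  obtain ⟨a, ha, a4⟩ := key 4 (by omega) le_rfl
  obtain ⟨b, hb, b3⟩ := key 3 (by omega) (by omega)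
  by_cases a3 : a ^ 3 = 1
  swap
  · exact ⟨a, ha, a4, a3⟩
  by_cases b4 : b ^ 4 = 1
  swap
  · exact ⟨b, hb, b4, b3⟩
  exact ⟨a * b, mu_mul ha hb, by rwa [mul_pow, b4, mul_one], by rwa [mul_pow, a3, one_mul]⟩

theorem fixed_eq_of_card [Finite F] (hc : Nat.card {a : F // Φ.σ a = a} ≤ 2) (c : F)
    (h : Φ.σ c = c) : c = 0 ∨ c = 1 := by
  classical
  have := Fintype.ofFinite F
  by_contra hn
  push Not at hn
  rw [Nat.subtype_card (Finset.univ.filter fun a : F => Φ.σ a = a) (by simp)] at hc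
  have := Finset.card_le_card (s := {0, 1, c}) (t := Finset.univ.filter fun a : F => Φ.σ a = a)
    fun x hx => by
      simp only [Finset.mem_insert, Finset.mem_singleton] at hx
      rcases hx with rfl | rfl | rfl <;> simp [h]
  rw [Finset.card_eq_three.2 ⟨_, _, _, zero_ne_one, hn.1.symm, hn.2.symm, rfl⟩] at this
  omega

end Fm

end Cfsg.Agent.Class.Max

namespace Cfsg.Agent.Class.Tab

open Cfsg Cfsg.Agent.Class.Max

/-- Orthonormal frames in `SU₄(q)`. -/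
theorem u4_frame {F : Type*} [Field F] [Fintype F] {q : ℕ} (hF : Fintype.card F = q ^ 2)
    (hq : q ≠ 3) {D : Fin 4 → Submodule F (Fin 4 → F)}
    (hD : Geo.IsNondegenerateMDecomposition (hermForm 4 F q) 1 D) :
    Geo.IsMaximalIn (GU 4 F q ⊓ Geo.specialLinear (Fin 4) F)
      (Geo.decompositionStabilizer D ⊓ (GU 4 F q ⊓ Geo.specialLinear (Fin 4) F)) := by
  have := U.UF.of_card hF
  refine dstab_isMaximalIn_of (mem_SU_iff 4 q) ((isU_fmUStd 4 q).isMaximalIn_four (u_oDec_of hD)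
    hD.decomp.finrank_eq (by simp) ?_)
  by_cases h2 : q ≤ 2
  · refine Or.inl (Fm.fixed_eq_of_card ?_)
    change Nat.card {a : F // U.conj F q a = a} ≤ 2
    rwa [U.card_fixed]
  · refine Or.inr (Fm.exists_mu_three_four ?_)
    change 5 ≤ Nat.card {z : F // z * U.conj F q z = 1}
    rw [U.card_norm_fiber one_ne_zero (map_one _)]
    omega

end Cfsg.Agent.Class.Tab
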