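import Mathlib
import Cfsg.Agent.Class.Max.Bridge
import Cfsg.Agent.Class.Max.N4U3

set_option autoImplicit false

namespace Cfsg.Agent.Class.Tab

open Cfsg

/-- `O₄^±(q)` in `SU₄(q)`. -/
theorem u4_orth {F : Type*} [Field F] [Fintype F] {q : ℕ} (hF : Fintype.card F = q ^ 2)
    (hodd : Odd q) (hq : 5 ≤ q) (F₀ : Subfield F) (P : GL (Fin 4) F)
    (hc : Fintype.card F = Nat.card F₀ ^ 2) (hP : Geo.IsFormRationalStructure (hermForm 4 F q) F₀ 1 P) :
    Geo.IsMaximalIn (GU 4 F q ⊓ Geo.specialLinear (Fin 4) F)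
      (Geo.subfieldSubgroup F₀ P ⊓ (GU 4 F q ⊓ Geo.specialLinear (Fin 4) F)) :=
  Max.orth_isMaximalIn_su_four hF hodd (by omega) F₀ hc P hP

end Cfsg.Agent.Class.Tab
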