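import Mathlib
import Cfsg.Agent.Class.Max.Bridge
import Cfsg.Agent.Class.Max.C2U5
import Cfsg.Agent.Class.Max.C2Pair

set_option autoImplicit false
set_option linter.unusedSectionVars false

namespace Cfsg.Agent.Class.Max

open Module

variable {F V : Type*} [Field F] [AddCommGroup V] [Module F V]

namespace Fm

variable {Φ : Fm F V} {M : Subgroup (V ≃ₗ[F] V)} {U U' : Submodule F V}

theorem IsU.comm_u4 (hU : Φ.IsU) : Φ.Comm := fun g hg h hh =>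
  hU.mem_EG (Φ.Iso.mul_mem (Φ.Iso.mul_mem (Φ.Iso.mul_mem hg hh) (Φ.Iso.inv_mem hg))
    (Φ.Iso.inv_mem hh)) (by
      have h1 := det_mul_equiv g g⁻¹
      have h2 := det_mul_equiv h h⁻¹
      rw [mul_inv_cancel] at h1 h2
      have h3 : LinearMap.det ((1 : V ≃ₗ[F] V) : V →ₗ[F] V) = 1 := LinearMap.det_id
      rw [h3] at h1 h2
      simp only [det_mul_equiv]
      linear_combination (-(LinearMap.det (h : V →ₗ[F] V) *
        LinearMap.det ((h⁻¹ : V ≃ₗ[F] V) : V →ₗ[F] V))) * h1 - h2)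

variable (Φ) in
/-- A proper overgroup of the stabiliser of a pair of isotropic planes in a unitary `4`-space. -/
structure U4T (U U' : Submodule F V) (M : Subgroup (V ≃ₗ[F] V)) : Prop where
  u : Φ.IsU
  tp : Φ.TsPair U U'
  dim : finrank F U = 2
  le : stabPair U U' ⊓ Φ.EG ≤ M
  le' : M ≤ Φ.EG
  ne : ¬ Φ.EG ≤ M
  r : ∃ r, Φ.σ r = r ∧ r ≠ 0 ∧ r * r ≠ 1

variable (Φ) in
/-- A pair of perpendicular non-zero vectors, one in each plane. -/
structure SpP (U U' : Submodule F V) (w w' : V) : Prop where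
  mem : w ∈ U
  mem' : w' ∈ U'
  ne : w ≠ 0
  ne' : w' ≠ 0
  perp : Φ.B w w' = 0

theorem SpP.symm {w w' : V} (h : Φ.SpP U U' w w') : Φ.SpP U' U w' w :=
  ⟨h.mem', h.mem, h.ne', h.ne, Φ.perp_symm h.perp⟩

namespace U4T

variable [FiniteDimensional F V] (h : Φ.U4T U U' M)
include h

theorem symm : Φ.U4T U' U M :=
  ⟨h.u, h.tp.symm, h.tp.finrank_eq.trans h.dim, stabPair_comm U U' ▸ h.le, h.le', h.ne, h.r⟩

theorem iso {g : V ≃ₗ[F] V} (hg : g ∈ M) : g ∈ Φ.Iso := Φ.EG_le_Iso (h.le' hg)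

theorem exists_one {u : V} (hu : u ∈ U) (h0 : u ≠ 0) : ∃ f ∈ U', Φ.B u f = 1 := by
  obtain ⟨y, hy, hy'⟩ : ∃ y ∈ U', Φ.B u y ≠ 0 := by
    by_contra hc
    push Not at hc
    exact h0 (h.tp.nd hu hc)
  exact ⟨_, U'.smul_mem (Φ.B u y)⁻¹ hy, by rw [Φ.B_smul_right, inv_mul_cancel₀ hy']⟩

theorem eq_smul {w w' x : V} (hw : Φ.SpP U U' w w') (hx : x ∈ U) (e : Φ.B w' x = 0) :
    ∃ c : F, x = c • w := by
  obtain ⟨f, hf, hf1⟩ := h.symm.exists_one hw.mem' hw.ne'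
  have h1 : U ⊓ LinearMap.ker (Φ.B w') < U := lt_of_le_of_ne inf_le_left fun e => by
    rw [← e] at hf
    exact one_ne_zero (hf1.symm.trans hf.2)
  have h2 := Submodule.finrank_lt_finrank_of_lt h1
  have h3 : Submodule.span F {w} = U ⊓ LinearMap.ker (Φ.B w') := Submodule.eq_of_le_of_finrank_le
    ((Submodule.span_singleton_le_iff_mem _ _).2 ⟨hw.mem, Φ.perp_symm hw.perp⟩)
    (by rw [finrank_span_singleton hw.ne]; have := h.dim; omega)
  obtain ⟨c, e⟩ := Submodule.mem_span_singleton.1 (h3.ge ⟨hx, e⟩)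
  exact ⟨c, e.symm⟩

theorem exists_spP {w : V} (hw : w ∈ U) (h0 : w ≠ 0) : ∃ w', Φ.SpP U U' w w' := by
  obtain ⟨w', h1, h2, h3⟩ := exists_ne_zero_ker [Φ.B w] U' (by simp [h.symm.dim])
  exact ⟨w', hw, h1, h0, h2, h3 _ (by simp)⟩

variable [Finite F]

theorem exists_swap : ∃ s ∈ stabPair U U' ⊓ Φ.EG, (∀ x ∈ U, s x ∈ U') ∧ ∀ y ∈ U', s y ∈ U := by
  obtain ⟨s, hs, s1, s2, -⟩ := h.tp.dualPair.swap _ rfl (Or.inl h.u.exists_lam)
  exact ⟨s, ⟨mem_stabPair_of_swap s1 s2, hs⟩, s1, s2⟩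

theorem tv_eq_zero {w : V} (hw : w ∈ U) (hw0 : w ≠ 0) {c : F} (hc' : Φ.π c = 0)
    (h2 : Φ.HasE M w 0 c) : c = 0 := by
  by_contra hc
  have hκ := neg_ne_zero.2 (mul_ne_zero Φ.eps_ne hc)
  have k1 : ∀ y ∈ U, y ∉ Submodule.span F {w} → Φ.HasE M w ((-(Φ.ε * c)) • y) 0 := by
    intro y hy hy'
    have h3 : w ∉ Submodule.span F {y} := fun h3 => by
      obtain ⟨t, rfl⟩ := Submodule.mem_span_singleton.1 h3
      have ht : t ≠ 0 := fun ht => hw0 (by rw [ht, zero_smul])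
      exact hy' (Submodule.mem_span_singleton.2
        ⟨t⁻¹, by rw [smul_smul, inv_mul_cancel₀ ht, one_smul]⟩)
    obtain ⟨g, hg, hI, e1⟩ := h.tp.exists_move h.le hw hy h3
    obtain ⟨g', hg', hI', e2⟩ := h.tp.exists_move h.le (U.add_mem hw hy) (U.neg_mem hw)
      (fun h4 => by
        obtain ⟨t, ht⟩ := Submodule.mem_span_singleton.1 h4
        exact hy' (Submodule.mem_span_singleton.2 ⟨-t - 1, by
          rw [← add_sub_cancel_left w y, ← ht]; module⟩))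
    have h4 := h2.conj hg hI
    rw [e1, map_zero] at h4
    have h5 := h4.conj hg' hI'
    rw [e2, map_zero, show w + y + -w = y by abel] at h5
    exact (hasE_add_center (h.tp.ts.1 w hw) (h.tp.ts.1 y hy) (h.tp.ts.2 w hw y hy) hc' h4 h2).1 h5
  have k2 : ∀ y ∈ U, y ∉ Submodule.span F {w} → Φ.HasE M w y 0 := fun y hy hy' => by
    have := k1 _ (U.smul_mem (-(Φ.ε * c))⁻¹ hy) (by
      rwa [Submodule.smul_mem_iff _ (inv_ne_zero hκ)])
    rwa [smul_smul, mul_inv_cancel₀ hκ, one_smul] at this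
  have v1 : ∀ z ∈ U, Φ.Valid w z 0 := fun z hz =>
    valid_zero (h.tp.ts.1 w hw) (h.tp.ts.2 w hw z hz) (h.tp.ts.1 z hz)
  have k3 : ∀ y ∈ U, Φ.HasE M w y 0 := fun y hy => by
    by_cases hy' : y ∈ Submodule.span F {w}
    swap
    · exact k2 y hy hy'
    obtain ⟨z, hz, hz'⟩ : ∃ z ∈ U, z ∉ Submodule.span F {w} := by
      by_contra hc
      push Not at hc
      have := Submodule.finrank_mono (show U ≤ _ from hc)
      rw [finrank_span_singleton hw0, h.dim] at this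
      omega
    have := (k2 _ (U.add_mem hy hz) (by rwa [Submodule.add_mem_iff_right _ hy'])).sub
      (v1 _ (U.add_mem hy hz)) (v1 z hz) (k2 z hz hz')
    rwa [add_sub_cancel_right, h.tp.ts.2 _ (U.sub_mem hz (U.add_mem hy hz)) z hz, sub_zero,
      add_zero] at this
  obtain ⟨s, hs, s1, -⟩ := h.exists_swap
  refine h.ne (h.tp.EG_le_of_full h.le (h.le hs) (Φ.EG_le_Iso hs.2) s1 hw hw0
    fun v c hv => InA.hasE ?_ (fun c hc => ?_) hv)
  · obtain ⟨x, hx, y, hy, rfl⟩ := h.tp.sup v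
    have h3 : Φ.B w y = 0 := by
      have := hv.perp
      rwa [map_add, h.tp.ts.2 w hw x hx, zero_add] at this
    exact InA.add ⟨0, v1 x hx, k3 x hx⟩ ⟨0, h.tp.valid hw hy h3, h.tp.hasE h.le hw hy h3⟩
  · obtain ⟨t, rfl⟩ := h.u.exists_lam_eq hc
    obtain ⟨g, hg, e⟩ := k3 _ (U.smul_mem (-t) hw)
    refine ⟨g, hg, fun x => ?_⟩
    have := ef_add_smul (Φ := Φ) w 0 (-t) 0 x
    rw [zero_add, zero_add] at this
    rw [e, this, h.u.eps, map_neg]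
    congr 1
    ring

theorem fst_eq_zero {w w' : V} (hw : Φ.SpP U U' w w') {a b : F} (ha : Φ.π a = 0)
    {x : V ≃ₗ[F] V} (hx : x ∈ M)
    (e : ∀ y, x y = y - (a * Φ.B w y) • w - (b * Φ.B w' y) • w') : a = 0 := by
  obtain ⟨f, hf, hf1⟩ := h.exists_one hw.mem hw.ne
  obtain ⟨r, r1, r0, r2⟩ := h.r
  obtain ⟨β, hβ⟩ := h.u.norm r r1
  have β0 : β ≠ 0 := fun e => r0 (by rw [← hβ, e, zero_mul])
  have q1 := h.tp.ts.1 w hw.mem
  have q2 := h.tp.ts'.1 f hf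
  obtain ⟨g, hg, ht⟩ := h.u.comm_u4.exists_isTor q1 q2 hf1 β0
  rw [hβ] at ht
  have hfw : Φ.B f w = 1 := by rw [h.u.symm, hf1, map_one]
  have hgM : g ∈ M := h.le ⟨Or.inl ⟨mem_stab_of_mapsTo fun v hv => ?_,
    mem_stab_of_mapsTo fun v hv => ?_⟩, hg⟩
  rotate_left
  · have := ht.fix (v - Φ.B f v • w) (by simp [h.tp.ts.2 w hw.mem v hv, Φ.B_self q1])
      (by simp [hfw])
    rw [map_sub, map_smul, ht.fst, sub_eq_iff_eq_add] at this
    rw [this]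
    exact U.add_mem (U.sub_mem hv (U.smul_mem _ hw.mem)) (U.smul_mem _ (U.smul_mem _ hw.mem))
  · have := ht.fix (v - Φ.B w v • f) (by simp [hf1]) (by simp [h.tp.ts'.2 f hf v hv, Φ.B_self q2])
    rw [map_sub, map_smul, ht.snd, sub_eq_iff_eq_add] at this
    rw [this]
    exact U'.add_mem (U'.sub_mem hv (U'.smul_mem _ hf)) (U'.smul_mem _ (U'.smul_mem _ hf))
  have e1 : g w' = w' := ht.fix w' hw.perp (h.tp.ts'.2 f hf w' hw.mem')
  have e2 : ∀ y, (g * x * g⁻¹) y = y - (r * r * a * Φ.B w y) • w - (b * Φ.B w' y) • w' := fun y => by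
    rw [mul_app, mul_app, e, map_sub, map_sub, map_smul, map_smul, app_inv_app, Iso.B_inv ht.iso,
      Iso.B_inv ht.iso, e1, ht.fst, Φ.B_smul_left, r1]
    module
  have h1 := h.tv_eq_zero hw.mem hw.ne (c := (r * r - 1) * a) (by
    rw [h.u.pi] at ha ⊢
    rw [map_mul, map_sub, map_mul, r1, map_one]
    linear_combination (r * r - 1) * ha)
    ⟨g * x * g⁻¹ * x⁻¹, M.mul_mem (M.mul_mem (M.mul_mem hgM hx) (M.inv_mem hgM)) (M.inv_mem hx),
      fun y => by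
      obtain ⟨y, rfl⟩ := x.surjective y
      rw [mul_app, inv_app_app, e2, e]
      simp only [ef, Φ.bsimp, h.u.eps, Φ.B_self q1, hw.perp]
      module⟩
  exact (mul_eq_zero.1 h1).resolve_left (sub_ne_zero.2 r2)

theorem half {u u' : V} (hu : Φ.SpP U U' u u') {g : V ≃ₗ[F] V} (hg : g ∈ Φ.Iso) (h1 : g u ∈ U)
    (h2 : g u' ∈ U') : ∃ c, Φ.π c = 0 ∧ ∀ x ∈ U, g x - (c * Φ.B (g u') (g x)) • g u' ∈ U := by
  have hw : Φ.SpP U U' (g u) (g u') := ⟨h1, h2, g.map_ne_zero_iff.2 hu.ne,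
    g.map_ne_zero_iff.2 hu.ne', by rw [Iso.B hg, hu.perp]⟩
  obtain ⟨f, hf, hf1⟩ := h.symm.exists_one hu.mem' hu.ne'
  obtain ⟨y, hy, y', hy', e⟩ := h.tp.sup (g f)
  obtain ⟨c, rfl⟩ := h.symm.eq_smul hw.symm hy' (by
    have := Iso.B hg u f
    rwa [h.tp.ts.2 u hu.mem f hf, e, map_add, h.tp.ts.2 _ h1 y hy, zero_add] at this)
  have e1 : Φ.B (g u') y = 1 := by
    have := Iso.B hg u' f
    rwa [hf1, e, map_add, h.tp.ts'.2 _ h2 _ hy', add_zero] at this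
  refine ⟨c, ?_, fun x hx => ?_⟩
  · have := Iso.Q hg f
    rwa [h.tp.ts.1 f hf, e, Φ.add, h.tp.ts.1 y hy, h.tp.ts'.1 _ hy', Φ.B_smul_right, h.u.symm, e1,
      map_one, mul_one, add_zero, zero_add] at this
  · obtain ⟨d, hd⟩ := h.eq_smul hu (U.sub_mem hx (U.smul_mem (Φ.B u' x) hf)) (by simp [hf1])
    rw [Iso.B hg]
    have : g x - (c * Φ.B u' x) • g u' = d • g u + Φ.B u' x • y := by
      rw [sub_eq_iff_eq_add.1 hd, map_add, map_smul, map_smul, e]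
      simp only [map_add, map_smul, hf1, Φ.perp_symm hu.perp, smul_eq_mul]
      module
    rw [this]
    exact U.add_mem (U.smul_mem _ h1) (U.smul_mem _ hy)

theorem mem_of_pts {u u' : V} (hu : Φ.SpP U U' u u') {g : V ≃ₗ[F] V} (hg : g ∈ M) (h1 : g u ∈ U)
    (h2 : g u' ∈ U') : g ∈ stabPair U U' := by
  have hI := h.iso hg
  have hw : Φ.SpP U U' (g u) (g u') := ⟨h1, h2, g.map_ne_zero_iff.2 hu.ne,
    g.map_ne_zero_iff.2 hu.ne', by rw [Iso.B hI, hu.perp]⟩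
  obtain ⟨c', hc', k'⟩ := h.half hu hI h1 h2
  obtain ⟨c, hc, k⟩ := h.symm.half hu.symm hI h2 h1
  have q1 := h.tp.ts.1 _ h1
  have q2 := h.tp.ts'.1 _ h2
  have v1 : Φ.Valid (g u) 0 c := ⟨q1, map_zero _, by rw [hc, Φ.Q_zero]⟩
  have v2 : Φ.Valid (g u') 0 c' := ⟨q2, map_zero _, by rw [hc', Φ.Q_zero]⟩
  have e : ∀ y, (v2.eich * v1.eich) y = y - (c * Φ.B (g u) y) • g u - (c' * Φ.B (g u') y) • g u' :=
    fun y => by
      simp only [mul_app, Valid.eich_apply, ef, Φ.bsimp, h.u.eps, Φ.perp_symm hw.perp]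
      module
  have h3 : v2.eich * v1.eich * g ∈ stab U ⊓ stab U' := ⟨mem_stab_of_mapsTo fun x hx => by
    rw [mul_app, e, Iso.B hI, h.tp.ts.2 u hu.mem x hx, mul_zero, zero_smul, sub_zero]
    exact k' x hx, mem_stab_of_mapsTo fun x hx => by
    rw [mul_app, e, Iso.B hI u', h.tp.ts'.2 u' hu.mem' x hx, mul_zero, zero_smul, sub_zero]
    exact k x hx⟩
  have h4 : v2.eich * v1.eich ∈ M := (M.mul_mem_cancel_right hg).1 (h.le ⟨Or.inl h3,
    Φ.EG.mul_mem (Φ.EG.mul_mem v2.eich_mem v1.eich_mem) (h.le' hg)⟩)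
  have h5 := h.fst_eq_zero hw hc h4 e
  have h6 := h.symm.fst_eq_zero hw.symm hc' h4 (b := c) fun y => by rw [e]; abel
  have h7 : v2.eich * v1.eich = 1 := LinearEquiv.ext fun y => by rw [e, h5, h6]; simp
  rw [h7, one_mul] at h3
  exact Or.inl h3

theorem pts_of_line {w w' a b : V} (hw : Φ.SpP U U' w w') (ha : a ∈ Submodule.span F {w, w'})
    (hb : b ∈ Submodule.span F {w, w'}) (a0 : a ≠ 0) (b0 : b ≠ 0)
    (hab : ∀ t : F, Φ.HasE M a (t • b) 0) : (a ∈ U ∧ b ∈ U') ∨ (a ∈ U' ∧ b ∈ U) := by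
  obtain ⟨α, β, rfl⟩ := Submodule.mem_span_pair.1 ha
  obtain ⟨γ, δ, rfl⟩ := Submodule.mem_span_pair.1 hb
  have q1 := h.tp.ts.1 _ hw.mem
  have q2 := h.tp.ts'.1 _ hw.mem'
  have key : ∀ t, t * (Φ.σ α * γ) = Φ.σ (t * (Φ.σ α * γ)) ∧
      t * (Φ.σ β * δ) = Φ.σ (t * (Φ.σ β * δ)) := fun t => by
    obtain ⟨x, hx, e⟩ := hab t
    obtain ⟨k, hk, ek⟩ := h.tp.hasE h.le hw.mem (U'.smul_mem (-(t * Φ.σ α * δ - Φ.σ t * Φ.σ γ * β))
      hw.mem') (by simp [hw.perp])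
    have e1 : ∀ y, (k * x) y = y - ((Φ.σ (t * (Φ.σ α * γ)) - t * (Φ.σ α * γ)) * Φ.B w y) • w -
        ((Φ.σ (t * (Φ.σ β * δ)) - t * (Φ.σ β * δ)) * Φ.B w' y) • w' := fun y => by
      simp only [mul_app, e, ek, ef, Φ.bsimp, h.u.eps, Φ.B_self q1, Φ.B_self q2, hw.perp,
        Φ.perp_symm hw.perp]
      module
    have p : ∀ z, Φ.π (Φ.σ z - z) = 0 := fun z => by simp [h.u.pi, Φ.invol]
    exact ⟨(sub_eq_zero.1 (h.fst_eq_zero hw (p _) (M.mul_mem hk hx) e1)).symm,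
      (sub_eq_zero.1 (h.symm.fst_eq_zero hw.symm (p _) (M.mul_mem hk hx)
        fun y => by rw [e1, sub_right_comm])).symm⟩
  obtain ⟨ζ, -, hζ⟩ := h.u.exists_mu
  have k : ∀ z, (∀ t, t * z = Φ.σ (t * z)) → z = 0 := fun z hz => by
    have h1 := hz 1
    have h2 := hz ζ
    rw [one_mul] at h1
    rw [map_mul, ← h1] at h2
    exact (mul_eq_zero.1 (by linear_combination -h2 : (Φ.σ ζ - ζ) * z = 0)).resolve_left
      (sub_ne_zero.2 hζ)
  have k1 := k _ fun t => (key t).1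
  have k2 := k _ fun t => (key t).2
  rw [mul_eq_zero, Φ.σ_eq_zero] at k1 k2
  by_cases hα : α = 0
  · have hβ : β ≠ 0 := fun e => a0 (by simp [hα, e])
    rw [hα, k2.resolve_left hβ]
    exact Or.inr ⟨by simpa using U'.smul_mem β hw.mem', by simpa using U.smul_mem γ hw.mem⟩
  · have hγ := k1.resolve_left hα
    have hδ : δ ≠ 0 := fun e => b0 (by simp [hγ, e])
    rw [hγ, k2.resolve_right hδ]
    exact Or.inl ⟨by simpa using U.smul_mem α hw.mem, by simpa using U'.smul_mem δ hw.mem'⟩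

omit [Finite F] in
theorem hasE_image {u u' : V} (hu : Φ.SpP U U' u u') {g : V ≃ₗ[F] V} (hg : g ∈ M) (t : F) :
    Φ.HasE M (g u) (t • g u') 0 := by
  have := (h.tp.hasE h.le hu.mem (U'.smul_mem t hu.mem') (by simp [hu.perp])).conj hg (h.iso hg)
  rwa [map_smul] at this

theorem mem_of_line {u u' w w' : V} (hu : Φ.SpP U U' u u') (hw : Φ.SpP U U' w w')
    {g : V ≃ₗ[F] V} (hg : g ∈ M) (h1 : g u ∈ Submodule.span F {w, w'})
    (h2 : g u' ∈ Submodule.span F {w, w'}) : g ∈ stabPair U U' := by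
  rcases h.pts_of_line hw h1 h2 (g.map_ne_zero_iff.2 hu.ne) (g.map_ne_zero_iff.2 hu.ne')
    (h.hasE_image hu hg) with h3 | h3
  · exact h.mem_of_pts hu hg h3.1 h3.2
  · obtain ⟨s, hs, s1, s2⟩ := h.exists_swap
    exact ((stabPair U U').mul_mem_cancel_left hs.1).1
      (h.mem_of_pts hu (M.mul_mem (h.le hs) hg) (s2 _ h3.1) (s1 _ h3.2))

omit [Finite F] in
theorem exists_meet {a b : V} (ha : Φ.Q a = 0) (hb : Φ.Q b = 0) (hab : Φ.B a b = 0) :
    ∃ l m : F, (l ≠ 0 ∨ m ≠ 0) ∧ ∃ y ∈ U, ∃ y' ∈ U', l • a + m • b = y + y' ∧ Φ.B y y' = 0 := by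
  obtain ⟨y, hy, y', hy', rfl⟩ := h.tp.sup a
  obtain ⟨z, hz, z', hz', rfl⟩ := h.tp.sup b
  by_cases hA : Φ.B y y' = 0
  · exact ⟨1, 0, Or.inl one_ne_zero, y, hy, y', hy', by simp, hA⟩
  rw [Φ.add, h.tp.ts.1 y hy, h.tp.ts'.1 y' hy', h.u.pi, add_zero, zero_add] at ha
  rw [Φ.add, h.tp.ts.1 z hz, h.tp.ts'.1 z' hz', h.u.pi, add_zero, zero_add] at hb
  simp only [Φ.bsimp, h.tp.ts.2 y hy z hz, h.tp.ts'.2 y' hy' z' hz', h.u.symm z y'] at hab
  have e1 : Φ.σ (Φ.B y y') = -Φ.B y y' := by linear_combination ha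
  have e2 : Φ.σ (Φ.B z z') = -Φ.B z z' := by linear_combination hb
  have e3 : Φ.σ (Φ.B z y') = -Φ.B y z' := by linear_combination hab
  have e4 : Φ.σ (Φ.B y z') = -Φ.B z y' := by
    rw [← neg_inj, ← map_neg, ← e3, Φ.invol, neg_neg]
  obtain ⟨c, hc⟩ := h.u.norm ((Φ.B y z' * Φ.B z y' - Φ.B y y' * Φ.B z z') /
    (Φ.B y y' * Φ.B y y')) (by
      simp only [Φ.bsimp, e1, e2, e3, e4]
      ring)
  refine ⟨c - Φ.B y z' / Φ.B y y', 1, Or.inr one_ne_zero, _,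
    U.add_mem (U.smul_mem (c - Φ.B y z' / Φ.B y y') hy) hz, _,
    U'.add_mem (U'.smul_mem (c - Φ.B y z' / Φ.B y y') hy') hz', by module, ?_⟩
  simp only [Φ.bsimp, e1, e4]
  rw [eq_div_iff (mul_ne_zero hA hA)] at hc
  field_simp
  linear_combination hc

theorem key {u u' : V} (hu : Φ.SpP U U' u u') {g : V ≃ₗ[F] V} (hg : g ∈ M) :
    g u ∈ U ∨ g u ∈ U' := by
  have hI := h.iso hg
  have qa : Φ.Q (g u) = 0 := by rw [Iso.Q hI, h.tp.ts.1 u hu.mem]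
  have qb : Φ.Q (g u') = 0 := by rw [Iso.Q hI, h.tp.ts'.1 u' hu.mem']
  have hab : Φ.B (g u) (g u') = 0 := by rw [Iso.B hI, hu.perp]
  have hE := h.hasE_image hu hg
  have hv : ∀ α β : F, ∃ v, Φ.B (g u) v = α ∧ Φ.B (g u') v = β := fun α β => by
    obtain ⟨f', hf', e'⟩ := h.exists_one hu.mem hu.ne
    obtain ⟨f, hf, e⟩ := h.symm.exists_one hu.mem' hu.ne'
    exact ⟨g (α • f' + β • f), by simp [Iso.B hI, e', h.tp.ts.2 u hu.mem f hf],
      by simp [Iso.B hI, e, h.tp.ts'.2 u' hu.mem' f' hf']⟩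
  have a0 := g.map_ne_zero_iff.2 hu.ne
  have b0 := g.map_ne_zero_iff.2 hu.ne'
  generalize g u = a at *
  generalize g u' = b at *
  obtain ⟨l, m, hlm, y, hy, y', hy', e, hyy⟩ := h.exists_meet qa qb hab
  have z0 : y + y' ≠ 0 := fun e' => by
    obtain ⟨v, v1, v2⟩ := hv 1 0
    obtain ⟨v', v1', v2'⟩ := hv 0 1
    have k1 := congrArg (fun x => Φ.B x v) (e.trans e')
    have k2 := congrArg (fun x => Φ.B x v') (e.trans e')
    simp only [Φ.bsimp, v1, v2, v1', v2', mul_one, mul_zero, add_zero, zero_add,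
      Φ.σ_eq_zero] at k1 k2
    exact hlm.elim (· k1) (· k2)
  obtain ⟨w, w', hw, hz⟩ : ∃ w w', Φ.SpP U U' w w' ∧ y + y' ∈ Submodule.span F {w, w'} := by
    by_cases h1 : y = 0
    · obtain ⟨w, hw⟩ := h.symm.exists_spP hy' (by simpa [h1] using z0)
      exact ⟨w, y', hw.symm, Submodule.mem_span_pair.2 ⟨0, 1, by simp [h1]⟩⟩
    by_cases h2 : y' = 0
    · obtain ⟨w, hw⟩ := h.exists_spP hy h1
      exact ⟨y, w, hw, Submodule.mem_span_pair.2 ⟨1, 0, by simp [h2]⟩⟩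
    · exact ⟨y, y', ⟨hy, hy', h1, h2, hyy⟩, Submodule.mem_span_pair.2 ⟨1, 1, by simp⟩⟩
  rw [← e] at hz
  obtain ⟨t₀, t0, ht₀⟩ : ∃ t₀ : F, t₀ ≠ 0 ∧ ∀ r, Φ.σ r = r → ∀ v, Φ.B (l • a + m • b) v = 0 →
      ∃ κ : F, Φ.ef a ((r * t₀) • b) 0 v = v + κ • (l • a + m • b) := by
    by_cases hl : l = 0
    · have hm := hlm.resolve_left (not_not.2 hl)
      refine ⟨1, one_ne_zero, fun r _ v hv => ⟨r * Φ.B a v / m, ?_⟩⟩
      simp only [hl, Φ.bsimp, zero_mul, zero_add, mul_eq_zero, Φ.σ_eq_zero, hm, false_or] at hv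
      simp only [ef, Φ.bsimp, hv, hl]
      match_scalars <;> field_simp
      ring
    by_cases hm : m = 0
    · refine ⟨1, one_ne_zero, fun r hr v hv => ⟨-(r * Φ.B b v / l), ?_⟩⟩
      simp only [hm, Φ.bsimp, zero_mul, add_zero, mul_eq_zero, Φ.σ_eq_zero, hl, false_or] at hv
      simp only [ef, Φ.bsimp, hv, hm, hr, h.u.eps]
      match_scalars <;> field_simp <;> ring
    · refine ⟨Φ.σ l * m, mul_ne_zero (Φ.σ_ne hl) hm, fun r hr v hv => ⟨r * Φ.σ l * Φ.B a v, ?_⟩⟩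
      simp only [Φ.bsimp] at hv
      simp only [ef, Φ.bsimp, hr, h.u.eps]
      match_scalars
      · rfl
      · ring
      · linear_combination (-(r * l)) * hv
  have hts : ∀ v ∈ Submodule.span F {w, w'}, ∀ v' ∈ Submodule.span F {w, w'}, Φ.B v v' = 0 := by
    intro v hv v' hv'
    obtain ⟨α, β, rfl⟩ := Submodule.mem_span_pair.1 hv
    obtain ⟨γ, δ, rfl⟩ := Submodule.mem_span_pair.1 hv'
    simp [Φ.B_self (h.tp.ts.1 _ hw.mem), Φ.B_self (h.tp.ts'.1 _ hw.mem'), hw.perp,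
      Φ.perp_symm hw.perp]
  have val : ∀ t : F, Φ.Valid a (t • b) 0 := fun t =>
    valid_zero qa (by simp [hab]) (Φ.Q_smul_zero qb t)
  have hx : ∀ r, Φ.σ r = r → (val (r * t₀)).eich ∈ stabPair U U' := fun r hr => by
    have k : ∀ v ∈ Submodule.span F {w, w'}, (val (r * t₀)).eich v ∈ Submodule.span F {w, w'} :=
      fun v hv => by
        obtain ⟨κ, e⟩ := ht₀ r hr v (hts _ hz v hv)
        rw [Valid.eich_apply, e]
        exact Submodule.add_mem _ hv (Submodule.smul_mem _ _ hz)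
    exact h.mem_of_line hw hw ((hE _).mem (Valid.eich_apply _))
      (k w (Submodule.subset_span (by simp))) (k w' (Submodule.subset_span (by simp)))
  obtain ⟨t, t1, ht⟩ : ∃ t : F, t ≠ 0 ∧ (val t).eich ∈ stab U ∧ (val t).eich ∈ stab U' := by
    obtain ⟨r, r1, r0, r2⟩ := h.r
    rcases hx 1 (map_one _) with h1 | h1
    · exact ⟨_, by simpa using t0, h1⟩
    rcases hx r r1 with h2 | h2
    · exact ⟨_, mul_ne_zero r0 t0, h2⟩
    have e : (val ((1 + r) * t₀)).eich = (val (1 * t₀)).eich * (val (r * t₀)).eich :=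
      LinearEquiv.ext fun v => by
        simp only [mul_app, Valid.eich_apply, ef, Φ.bsimp, hab, Φ.perp_symm hab, Φ.B_self qa,
          Φ.B_self qb]
        module
    refine ⟨(1 + r) * t₀, mul_ne_zero (fun e => r2 (by linear_combination (r - 1) * e)) t0, ?_⟩
    rw [e]
    exact ⟨fun v => (h2.1 v).trans (h1.2 _), fun v => (h2.2 v).trans (h1.1 _)⟩
  have dec : ∀ p ∈ Submodule.span F {a, b}, ∃ y ∈ U, ∃ y' ∈ U', y ∈ Submodule.span F {a, b} ∧
      y' ∈ Submodule.span F {a, b} ∧ p = y + y' := fun p hp => by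
    obtain ⟨α, β, rfl⟩ := Submodule.mem_span_pair.1 hp
    obtain ⟨v, v1, v2⟩ := hv (β / t) (-(α / Φ.σ t))
    obtain ⟨x, hx, x', hx', rfl⟩ := h.tp.sup v
    have k : ∀ v, (val t).eich v - v ∈ Submodule.span F {a, b} := fun v =>
      Submodule.mem_span_pair.2 ⟨-(Φ.σ t * Φ.B b v), t * Φ.B a v, by
        simp only [Valid.eich_apply, ef, Φ.bsimp, h.u.eps]; module⟩
    refine ⟨_, U.sub_mem (stab_apply ht.1 hx) hx, _, U'.sub_mem (stab_apply ht.2 hx') hx', k x,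
      k x', ?_⟩
    have := Φ.σ_ne t1
    rw [sub_add_sub_comm, ← map_add, Valid.eich_apply, ef, v1, Φ.B_smul_left, v2, h.u.eps]
    match_scalars <;> field_simp <;> ring
  have hts' : ∀ v ∈ Submodule.span F {a, b}, ∀ v' ∈ Submodule.span F {a, b}, Φ.B v v' = 0 := by
    intro v hv v' hv'
    obtain ⟨α, β, rfl⟩ := Submodule.mem_span_pair.1 hv
    obtain ⟨γ, δ, rfl⟩ := Submodule.mem_span_pair.1 hv'
    simp [Φ.B_self qa, Φ.B_self qb, hab, Φ.perp_symm hab]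
  obtain ⟨y, hy, y', hy', y1, y2, ea⟩ := dec a (Submodule.subset_span (by simp))
  obtain ⟨z, hz, z', hz', z1, z2, eb⟩ := dec b (Submodule.subset_span (by simp))
  by_cases h1 : y = 0
  · exact Or.inr (by rwa [ea, h1, zero_add])
  by_cases h2 : y' = 0
  · exact Or.inl (by rwa [ea, h2, add_zero])
  have hs : Φ.SpP U U' y y' := ⟨hy, hy', h1, h2, hts' _ y1 _ y2⟩
  obtain ⟨c, rfl⟩ := h.eq_smul hs hz (hts' _ y2 _ z1)
  obtain ⟨c', rfl⟩ := h.symm.eq_smul hs.symm hz' (hts' _ y1 _ z2)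
  exact (h.pts_of_line hs (Submodule.mem_span_pair.2 ⟨1, 1, by simp [ea]⟩)
    (Submodule.mem_span_pair.2 ⟨c, c', eb.symm⟩) a0 b0 hE).imp And.left And.left

end U4T

theorem IsU.isMaximalIn_pair_two [FiniteDimensional F V] [Finite F] (hU : Φ.IsU)
    (h : Φ.TsPair U U') (hk : finrank F U = 2) (hr : ∃ r, Φ.σ r = r ∧ r ≠ 0 ∧ r * r ≠ 1) :
    Geo.IsMaximalIn Φ.EG (stabPair U U' ⊓ Φ.EG) := by
  refine h.isMaximalIn_of_key hk.ge fun M h1 h2 hc g hg v hv => ?_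
  have H : Φ.U4T U U' M := ⟨hU, h, hk, h1, h2, hc, hr⟩
  by_cases v0 : v = 0
  · exact Or.inl (by rw [v0, map_zero]; exact U.zero_mem)
  rcases hv with hv | hv
  · obtain ⟨v', hv'⟩ := H.exists_spP hv v0
    exact H.key hv' hg
  · obtain ⟨v', hv'⟩ := H.symm.exists_spP hv v0
    exact (H.symm.key hv' hg).symm

theorem exists_fixed_sq_ne [Finite F] (h4 : 4 ≤ Nat.card {a : F // Φ.σ a = a}) :
    ∃ r, Φ.σ r = r ∧ r ≠ 0 ∧ r * r ≠ 1 := by
  classical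
  have := Fintype.ofFinite F
  rw [Nat.card_eq_fintype_card] at h4
  obtain ⟨⟨r, hr⟩, h3⟩ := exists_ne_list [(⟨0, by simp⟩ : {a : F // Φ.σ a = a}), ⟨1, by simp⟩,
    ⟨-1, by simp⟩] (by simp only [List.length_cons, List.length_nil]; omega)
  simp only [List.mem_cons, List.not_mem_nil, or_false, forall_eq_or_imp, forall_eq, ne_eq,
    Subtype.mk.injEq] at h3
  exact ⟨r, hr, h3.1, fun e => (mul_self_eq_one_iff.1 e).elim h3.2.1 h3.2.2⟩

end Fm

end Cfsg.Agent.Class.Max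

namespace Cfsg.Agent.Class.Tab

open Cfsg Cfsg.Agent.Class.Max

/-- A pair of totally isotropic planes in `SU₄(q)`. -/
theorem u4_tsPair {F : Type*} [Field F] [Fintype F] {q : ℕ} (hF : Fintype.card F = q ^ 2)
    (hq : 4 ≤ q) {D : Fin 2 → Submodule F (Fin 4 → F)} (hD : Geo.IsMDecomposition 2 D)
    (hts : ∀ i, Geo.IsTotallySingularFor (hermForm 4 F q) (D i)) :
    Geo.IsMaximalIn (GU 4 F q ⊓ Geo.specialLinear (Fin 4) F)
      (Geo.decompositionStabilizer D ⊓ (GU 4 F q ⊓ Geo.specialLinear (Fin 4) F)) :=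
  haveI := U.UF.of_card hF
  pair_isMaximalIn_of (mem_SU_iff 4 q) ((isU_fmUStd 4 q).isMaximalIn_pair_two (tsPair_of hD fun i =>
    ⟨fun x hx => hts i x hx x hx, fun x hx y hy => hts i y hy x hx⟩) (hD.finrank_eq 0)
    (Fm.exists_fixed_sq_ne (by
      change 4 ≤ Nat.card {a : F // U.conj F q a = a}
      rwa [U.card_fixed])))

end Cfsg.Agent.Class.Tab
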